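import Cfsg.Agent.Lib.BrauerPairs.ThirdMain
import Cfsg.Agent.Lib.BlockLocal.Kulshammer
import Cfsg.Agent.Lib.BlockLocal.ClassFunctional
import Cfsg.Agent.Lib.BlockLocal.Covering
import Cfsg.Agent.Lib.BlockLocal.BlockCover

/-!
# The principal block over a normal subgroup

Every member of the principal block of a normal subgroup is a constituent of the restriction of a
member of the principal block of the group.
-/

set_option autoImplicit false
set_option linter.style.haveILetI false
set_option linter.unusedSectionVars false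

namespace CfsgLib.BrauerPairs

open Cfsg Finset CfsgLib.Blocks
open scoped ComplexConjugate

variable {G : Type*} [Group G] [Fintype G] {p : ℕ} [hp : Fact p.Prime] {M : Ideal AlgInt}
  [hMp : M.IsPrime]

/-- The number of regular elements is prime to `p`. -/
theorem not_dvd_card_pRegular (hM : IsPModular p M) :
    ¬ p ∣ Nat.card {y : G // ¬ p ∣ orderOf y} := by
  classical
  intro hd
  set R := Nat.card {y : G // ¬ p ∣ orderOf y}
  have hR0 : (R : ℂ) ≠ 0 :=
    Nat.cast_ne_zero.2 (Nat.card_pos_iff.2
      ⟨⟨⟨1, by rw [orderOf_one]; exact hp.out.not_dvd_one⟩⟩, inferInstance⟩).ne'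
  have h := BlockLocal.memLocalIdeal_blockCoeff_principal_sub (M := M) hM (1 : G)
    (by rw [orderOf_one]; exact hp.out.not_dvd_one)
  rw [Nat.card_eq_one_iff_unique.2 ⟨⟨fun a b => ?_⟩, ⟨⟨(1, 1), ⟨0, by simp⟩,
    by rw [orderOf_one]; exact hp.out.not_dvd_one, one_mul 1⟩⟩⟩, Nat.cast_one] at h
  · have hinv : MemLocalRing M (1 / (R : ℂ)) := by
      have h2 := memLocalRing_add (memLocalRing_blockCoeff (isPBlock_principalBlock M (G := G)) 1)
        (memLocalRing_of_memLocalIdeal (memLocalIdeal_neg h))
      rwa [neg_sub, add_sub_cancel] at h2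
    exact not_memLocalIdeal_of_mul_eq_one hinv (mul_one_div_cancel hR0)
      ((memLocalIdeal_natCast_iff hM R).2 hd)
  · have hall : ∀ c : {xy : G × G // (∃ k : ℕ, orderOf xy.1 = p ^ k) ∧ ¬ p ∣ orderOf xy.2 ∧
        xy.1 * xy.2 = 1}, c.1 = (1, 1) := by
      rintro ⟨⟨x, y⟩, ⟨j, hj⟩, hy, hxy⟩
      simp only at hxy hj hy
      have hyx : y = x⁻¹ := eq_inv_of_mul_eq_one_right hxy
      subst hyx
      have hj0 : j = 0 := by
        by_contra hj0
        apply hy
        rw [orderOf_inv, hj]
        exact dvd_pow_self p hj0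
      rw [hj0, pow_zero, orderOf_eq_one_iff] at hj
      simp [hj]
    exact Subtype.ext ((hall a).trans (hall b).symm)

theorem natCast_res_eq_zero_iff (hM : IsPModular p M) (n : ℕ) :
    (n : Res M) = 0 ↔ p ∣ n := by
  haveI := charP_res hM
  exact CharP.cast_eq_zero_iff (Res M) p n

/-- The principal idempotent at a regular element centralising a Sylow subgroup. -/
theorem redC_principal_mul_card (hM : IsPModular p M) (P : Sylow p G) {g : G}
    (hg : ¬ p ∣ orderOf g) (hgP : g ∈ Subgroup.centralizer ((P : Subgroup G) : Set G)) :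
    redC M (blockCoeff (principalBlock M G) g) *
      (Nat.card {y : G // ¬ p ∣ orderOf y} : Res M) = 1 := by
  classical
  haveI := charP_res hM
  set R := Nat.card {y : G // ¬ p ∣ orderOf y} with hR
  let X := {xy : G × G // (∃ k : ℕ, orderOf xy.1 = p ^ k) ∧ ¬ p ∣ orderOf xy.2 ∧ xy.1 * xy.2 = g}
  letI act : MulAction P X :=
    { smul := fun u x => ⟨((u : G) * x.1.1 * (u : G)⁻¹, (u : G) * x.1.2 * (u : G)⁻¹), by
        obtain ⟨k, hk⟩ := x.2.1
        refine ⟨⟨k, ((MulAut.conj (u : G)).orderOf_eq _).trans hk⟩, fun h => x.2.2.1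
          (((MulAut.conj (u : G)).orderOf_eq x.1.2) ▸ h), ?_⟩
        rw [show (u : G) * x.1.1 * (u : G)⁻¹ * ((u : G) * x.1.2 * (u : G)⁻¹) =
          (u : G) * (x.1.1 * x.1.2) * (u : G)⁻¹ by simp [mul_assoc], x.2.2.2,
          Subgroup.mem_centralizer_iff.1 hgP _ u.2, mul_inv_cancel_right]⟩
      one_smul := fun x => Subtype.ext
        (show (((1 : P) : G) * x.1.1 * ((1 : P) : G)⁻¹, ((1 : P) : G) * x.1.2 * ((1 : P) : G)⁻¹) =
          x.1 by simp)
      mul_smul := fun u v x => Subtype.ext
        (show (((u * v : P) : G) * x.1.1 * ((u * v : P) : G)⁻¹,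
            ((u * v : P) : G) * x.1.2 * ((u * v : P) : G)⁻¹) =
          ((u : G) * ((v : G) * x.1.1 * (v : G)⁻¹) * (u : G)⁻¹,
            (u : G) * ((v : G) * x.1.2 * (v : G)⁻¹) * (u : G)⁻¹) by simp [mul_assoc]) }
  have hone : Nat.card (MulAction.fixedPoints P X) = 1 := by
    have hcen : ∀ x : X, x ∈ MulAction.fixedPoints P X →
        x.1.1 ∈ Subgroup.centralizer ((P : Subgroup G) : Set G) := by
      intro x hx
      refine Subgroup.mem_centralizer_iff.2 fun u hu => ?_
      have h : (u * x.1.1 * u⁻¹, u * x.1.2 * u⁻¹) = x.1 := congrArg Subtype.val (hx ⟨u, hu⟩)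
      exact mul_inv_eq_iff_eq_mul.1 (congrArg Prod.fst h)
    rw [Nat.card_eq_one_iff_unique]
    refine ⟨⟨fun a b => ?_⟩, ⟨⟨⟨(1, g), ⟨0, by simp⟩, hg, one_mul g⟩, fun u => Subtype.ext ?_⟩⟩⟩
    · have hall : ∀ x : MulAction.fixedPoints P X, x.1.1 = (1, g) := by
        rintro ⟨⟨⟨x, y⟩, ⟨k, hk⟩, hy, hxy⟩, hx⟩
        have hxc := hcen _ hx
        simp only at hk hy hxy hxc ⊢
        have hxP : x ∈ (P : Subgroup G) := by
          have hP : IsPGroup p (Subgroup.zpowers x) :=
            IsPGroup.of_card (by rw [Nat.card_zpowers, hk])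
          have hle : Subgroup.zpowers x ≤ Subgroup.normalizer ((P : Subgroup G) : Set G) :=
            Subgroup.zpowers_le.2 (Subgroup.centralizer_le_normalizer _ hxc)
          have h2 := P.3 (IsPGroup.to_sup_of_normal_right' hP P.2 hle) le_sup_right
          exact h2.le (Subgroup.mem_sup_left (Subgroup.mem_zpowers x))
        have hcomm : Commute x g := Subgroup.mem_centralizer_iff.1 hgP x hxP
        have hy' : y = x⁻¹ * g := eq_inv_mul_iff_mul_eq.2 hxy
        have hx1 : x = 1 := by
          have h := hcomm.inv_left.orderOf_mul_eq_mul_orderOf_of_coprime (by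
            rw [orderOf_inv, hk]; exact (hp.out.coprime_iff_not_dvd.2 hg).pow_left _)
          rw [← hy', orderOf_inv, hk] at h
          rcases Nat.eq_zero_or_pos k with h0 | h0
          · exact orderOf_eq_one_iff.1 (by rw [hk, h0, pow_zero])
          · exact absurd (h ▸ (dvd_pow_self p h0.ne').mul_right _) hy
        rw [hy', hx1, inv_one, one_mul]
      exact Subtype.ext (Subtype.ext ((hall a).trans (hall b).symm))
    · show (((u : P) : G) * 1 * ((u : P) : G)⁻¹, ((u : P) : G) * g * ((u : P) : G)⁻¹) = (1, g)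
      rw [mul_one, mul_inv_cancel, Subgroup.mem_centralizer_iff.1 hgP _ u.2, mul_inv_cancel_right]
  have hmod : (Nat.card X : Res M) = 1 := by
    have h := P.2.card_modEq_card_fixedPoints (α := X)
    rw [hone] at h
    simpa using (CharP.natCast_eq_natCast (Res M) p).2 h
  have hRz : (R : ℂ) ≠ 0 := Nat.cast_ne_zero.2 fun h0 =>
    not_dvd_card_pRegular (G := G) hM (hR ▸ h0 ▸ dvd_zero p)
  have hkey := memLocalIdeal_mul_right
    (BlockLocal.memLocalIdeal_blockCoeff_principal_sub (M := M) hM g hg)
    (memLocalRing_natCast (M := M) R)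
  rw [sub_mul, ← hR, div_mul_cancel₀ _ hRz] at hkey
  have hb := memLocalRing_blockCoeff (isPBlock_principalBlock M (G := G)) g
  rw [← redC_eq_redC_iff (memLocalRing_mul hb (memLocalRing_natCast R))
    (memLocalRing_natCast _)] at hkey
  rw [redC_of_mem (memLocalRing_mul hb (memLocalRing_natCast R)),
    redC_of_mem (memLocalRing_natCast (M := M) (Nat.card X))] at hkey
  rw [redC_of_mem hb, ← hmod, ← map_natCast (red M) R, ← map_natCast (red M) (Nat.card X),
    ← map_mul]
  exact hkey

/-- The principal idempotent summed over a normal subgroup is a unit. -/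
theorem not_memLocalIdeal_sum_principal (hM : IsPModular p M) (N : Subgroup G) [hN : N.Normal]
    [Fintype N] : ¬ MemLocalIdeal M (∑ n : N, blockCoeff (principalBlock M G) (n : G)) := by
  classical
  haveI := charP_res hM
  obtain ⟨P⟩ := (inferInstance : Nonempty (Sylow p G))
  set β := blockCoeff (principalBlock M G) with hβ
  set R := Nat.card {y : G // ¬ p ∣ orderOf y} with hR
  have hloc : ∀ g, MemLocalRing M (β g) := memLocalRing_blockCoeff (isPBlock_principalBlock M)
  intro h
  rw [← redC_eq_zero_iff (memLocalRing_sum fun n _ => hloc _), redC_sum _ _ fun n _ => hloc _] at h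
  letI act : MulAction P N :=
    { smul := fun u n => ⟨(u : G) * n * (u : G)⁻¹, hN.conj_mem _ n.2 _⟩
      one_smul := fun n => Subtype.ext (show ((1 : P) : G) * n * ((1 : P) : G)⁻¹ = n by simp)
      mul_smul := fun u v n => Subtype.ext
        (show ((u * v : P) : G) * n * ((u * v : P) : G)⁻¹ =
          (u : G) * ((v : G) * n * (v : G)⁻¹) * (u : G)⁻¹ by simp [mul_assoc]) }
  rw [sum_eq_sum_fixedPoints (R := Res M) P.2 (fun n : N => redC M (β n))
    (fun u n => congrArg (redC M) (blockCoeff_conj _ (u : G) (n : G)))] at h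
  have h2 := congrArg (· * (R : Res M)) h
  simp only [zero_mul, sum_mul] at h2
  have hfix : ∀ n : N, n ∈ MulAction.fixedPoints P N ↔
      (n : G) ∈ Subgroup.centralizer ((P : Subgroup G) : Set G) := by
    intro n
    simp only [MulAction.mem_fixedPoints, Subtype.ext_iff, Subtype.forall]
    change (∀ u : G, u ∈ (P : Subgroup G) → u * (n : G) * u⁻¹ = n) ↔ _
    simp only [Subgroup.mem_centralizer_iff, mul_inv_eq_iff_eq_mul]
    exact Iff.rfl
  rw [sum_congr rfl (g := fun n : N => if p ∣ orderOf (n : G) then (0 : Res M) else 1)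
    (fun n hn => by
      split_ifs with hd
      · rw [hβ, blockCoeff_eq_zero_of_dvd_orderOf hM (isPBlock_principalBlock M) hd, redC_zero,
          zero_mul]
      · exact redC_principal_mul_card hM P hd ((hfix n).1 (mem_filter.1 hn).2)),
    sum_ite, sum_const_zero, zero_add, sum_const, nsmul_one] at h2
  let H : Subgroup G := N ⊓ Subgroup.centralizer ((P : Subgroup G) : Set G)
  haveI := Fintype.ofFinite H
  apply not_dvd_card_pRegular (G := H) (M := M) hM
  rw [← natCast_res_eq_zero_iff (M := M) hM, ← h2]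
  congr 1
  rw [← Fintype.card_coe, ← Nat.card_eq_fintype_card]
  exact Nat.card_congr
    { toFun := fun x => ⟨⟨x.1.1, x.1.2.1⟩, by
        simp only [mem_filter, mem_univ, true_and, hfix]
        exact ⟨x.1.2.2, by rw [Subgroup.orderOf_coe]; exact x.2⟩⟩
      invFun := fun n => ⟨⟨n.1.1, n.1.2, (hfix _).1 (mem_filter.1 (mem_filter.1 n.2).1).2⟩, by
        rw [← Subgroup.orderOf_coe]; exact (mem_filter.1 n.2).2⟩
      left_inv := fun x => rfl
      right_inv := fun n => rfl }

/-- Every member of the principal block of a normal subgroup lies under one of the group. -/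
theorem exists_principal_over (hM : IsPModular p M) (N : Subgroup G) [N.Normal] [Fintype N]
    {θ : IrrCharacter N} (hθ : θ ∈ principalBlock M N) :
    ∃ χ ∈ principalBlock M G, classInner (fun n : N => (χ : G → ℂ) n) (θ : N → ℂ) ≠ 0 := by
  classical
  by_contra hcon
  push Not at hcon
  set β := blockCoeff (principalBlock M G) with hβ
  have hzero : ∑ n : N, β n * (θ : N → ℂ) n = 0 := by
    simp only [hβ, blockCoeff, finsum_mem_eq_finite_toFinset_sum _ (Set.toFinite _), mul_sum,
      sum_mul]
    rw [sum_comm]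
    refine sum_eq_zero fun χ hχ => ?_
    have h := congrArg (starRingEnd ℂ) (hcon χ ((Set.Finite.mem_toFinset _).1 hχ))
    rw [classInner, map_mul, map_inv₀, map_natCast, map_sum, map_zero, mul_eq_zero] at h
    have h' := h.resolve_left (inv_ne_zero (Nat.cast_ne_zero.2 Nat.card_pos.ne'))
    simp only [map_mul, Complex.conj_conj] at h'
    calc _ = (Nat.card G : ℂ)⁻¹ * (χ : G → ℂ) 1 *
          ∑ n : N, conj ((χ : G → ℂ) n) * (θ : N → ℂ) n := by
          rw [mul_sum]; exact sum_congr rfl fun n _ => by ring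
      _ = 0 := by rw [h', mul_zero]
  have h := BlockLocal.memLocalIdeal_sum_sub_of_sameBlock (M := M)
    (CharTheory.IsIrrCharacter.isClassFunction (CharTheory.trivIrr N).2)
    (CharTheory.IsIrrCharacter.isClassFunction θ.2) hθ (a := fun n : N => β n)
    (fun g h => blockCoeff_conj _ (h : G) (g : G))
    (fun n => memLocalRing_blockCoeff (isPBlock_principalBlock M) _)
  rw [hzero, zero_div, sub_zero] at h
  simp only [CharTheory.trivIrr_apply, mul_one, div_one] at h
  exact not_memLocalIdeal_sum_principal hM N h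

end CfsgLib.BrauerPairs
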