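import Cfsg.Agent.Lib.BrauerPairs.Nilpotent

/-!
# Brauer's first main theorem in the group algebra
-/

noncomputable section

namespace CfsgLib.BrauerPairs

open MonoidAlgebra

variable {k : Type*} [Field k] {G : Type*} [Group G] [Finite G]
variable {p : ℕ} [Fact p.Prime] [CharP k p]

/-- The Brauer image of a block at its defect group is the orbit sum of a maximal pair. -/
theorem IsMaxPair.brau_eq_relTr {K P : Subgroup G} {b e : MonoidAlgebra k G}
    (hb : IsBlockIdem K b) (hP : IsMaxPair p K b P e) :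
    brau P b = relTr (pairStab K P e) (K ⊓ Subgroup.normalizer (P : Set G)) e := by
  set N := K ⊓ Subgroup.normalizer (P : Set G)
  set t := relTr (pairStab K P e) N e
  have heT : e ∈ fixedBy k (pairStab K P e) := fun x hx => (mem_pairStab.1 hx).2.2
  have hNC : N ≤ Subgroup.normalizer (Subgroup.centralizer (P : Set G) : Set G) :=
    inf_le_right.trans (normalizer_le_normalizer_cen P)
  have hb1 : brau P b ∈ fixedBy k N := trunc_mem_fixedBy hNC (hb.fixed_of_le inf_le_left)
  have hbt : brau P b * t = t := by rw [mul_relTr _ _ hb1, hP.1.2]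
  by_contra hne
  obtain ⟨g, hg, hg'⟩ := exists_isBlockIdem_mul_ne_zero (cenIn K P)
    (x := brau P b - brau P b * t) (by
      rw [hbt, sub_ne_zero]
      exact hne)
  have hgp : IsPair p K P g := ⟨hP.1.1.1, hP.1.1.2.1, hg⟩
  rcases hgp.brau_mul_dichotomy (mem_ctr.1 hb.mem).1 (hb.fixed_of_le inf_le_left)
    (hb.fixed_of_le hP.1.1.2.1) hb.mul_self with h0 | h1
  · apply hg'
    rw [sub_mul, h0, hbt, zero_sub, neg_eq_zero, ← hbt, mul_assoc,
      (ctr_commute ?_ hg.mem).eq, ← mul_assoc, h0, zero_mul]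
    exact mem_ctr.2 ⟨relTr_mem_supp (fun x hx => mem_normalizer_cenIn (Subgroup.mem_inf.1 hx).1 (Subgroup.mem_inf.1 hx).2)
      (mem_ctr.1 hP.1.1.2.2.mem).1,
      fixedBy_anti (inf_le_inf_left K (Subgroup.centralizer_le_normalizer _))
        (relTr_mem_fixedBy _ _ heT)⟩
  · have hgo : PairOf p K b P g := ⟨hgp, h1⟩
    obtain ⟨c, hc, hcP, hce⟩ :=
      hP.exists_conj hb (PairOf.isMaxPair_of_card hgo fun R g' h => hP.card_le hb h)
    have hcN : c ∈ Subgroup.normalizer (P : Set G) := by
      refine Subgroup.mem_normalizer_iff.2 fun u => ?_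
      constructor
      · intro hu
        rw [hcP]
        exact ⟨u, hu, rfl⟩
      · intro hu
        rw [hcP, mem_cj] at hu
        simpa [mul_assoc] using hu
    have htg : t * g = g := by
      have htc : conjA c t = t :=
        (relTr_mem_fixedBy (pairStab K P e) N heT) c (Subgroup.mem_inf.2 ⟨hc, hcN⟩)
      rw [hce, ← htc, ← map_mul, relTr_stab_mul_self hP.1.1.2.2]
    apply hg'
    rw [sub_mul, mul_assoc, htg, sub_self]

/-- First main theorem: two subgroups with the same centraliser and normaliser of `P` have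
corresponding blocks with defect group `P`, matched by the Brauer map. -/
theorem existsUnique_corr {K₁ K₂ P : Subgroup G} (hcen : cenIn K₁ P = cenIn K₂ P)
    (hN : K₁ ⊓ Subgroup.normalizer (P : Set G) = K₂ ⊓ Subgroup.normalizer (P : Set G))
    {b : MonoidAlgebra k G} (hb : IsBlockIdem K₁ b) (hD : IsDefectIn p K₁ K₁ b P) :
    ∃! c, IsBlockIdem K₂ c ∧ IsDefectIn p K₂ K₂ c P ∧ brau P c = brau P b := by
  obtain ⟨e, he⟩ := exists_isMaxPair_of_isDefectIn hb hD
  have hPK : P ≤ K₂ :=
    (le_inf hD.1 Subgroup.le_normalizer).trans (hN.le.trans inf_le_left)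
  have hep : IsPair p K₂ P e := ⟨hD.2.1, hPK, hcen ▸ he.1.1.2.2⟩
  have hstab : pairStab K₁ P e = pairStab K₂ P e := by rw [pairStab, pairStab, hN]
  obtain ⟨c, ⟨hc, hce⟩, -⟩ := existsUnique_pairOf hep
  have hmax : IsMaxPair p K₂ c P e := by
    refine isMaxPair_of_isDefectIn_stab hce ?_
    rw [← hstab, ← hcen]
    exact he.isDefectIn_stab hb
  refine ⟨c, ⟨hc, hmax.isDefectIn hc, ?_⟩, ?_⟩
  · rw [hmax.brau_eq_relTr hc, he.brau_eq_relTr hb, hstab, hN]
  · rintro c' ⟨hc', -, hbr⟩
    exact (existsUnique_pairOf hep).unique ⟨hc', hep, by rw [hbr, he.1.2]⟩ ⟨hc, hce⟩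

end CfsgLib.BrauerPairs
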