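import Cfsg.Agent.Lib.BrauerPairs.Covering
import Cfsg.Agent.Lib.BrauerPairs.FirstMain

/-!
# The correspondence of Harris and Knörr in the group algebra
-/

noncomputable section

namespace CfsgLib.BrauerPairs

open MonoidAlgebra

variable {k : Type*} [Field k] {G : Type*} [Group G] [Finite G]

/-- A block times a covered block of a normal subgroup is a block of the stabiliser. -/
theorem isBlockIdem_mul_stab {K N : Subgroup G} (hNK : N ≤ K)
    (hKN : K ≤ Subgroup.normalizer (N : Set G)) {b c : MonoidAlgebra k G} (hb : IsBlockIdem K b)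
    (hc : IsBlockIdem N c) (hbc0 : b * c ≠ 0) : IsBlockIdem (K ⊓ stabA c) (b * c) := by
  classical
  set T := K ⊓ stabA c with hT
  have hNT : N ≤ T := le_inf hNK (le_stabA_iff.2 (mem_ctr.1 hc.mem).2)
  have hTN : T ≤ Subgroup.normalizer (N : Set G) := inf_le_left.trans hKN
  have hcT : c ∈ fixedBy k T := fun x hx => (Subgroup.mem_inf.1 hx).2
  have hcK : c ∈ supp k K := supp_mono hNK (mem_ctr.1 hc.mem).1
  have hcomm : Commute b c := commute_of_fixedBy_of_supp (mem_ctr.1 hb.mem).2 hcK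
  have hbfix : b * c ∈ fixedBy k T := mul_mem (hb.fixed_of_le inf_le_left) hcT
  have hbcT : b * c ∈ ctr k T := by
    refine mem_ctr.2 ⟨fun g hg => ?_, hbfix⟩
    by_cases hgK : g ∈ K
    swap
    · exact (mul_mem (mem_ctr.1 hb.mem).1 hcK : b * c ∈ supp k K) g hgK
    set y := cosetPart N g b
    have hy : y ∈ fixedBy k N := cosetPart_mem_fixedBy hNK (hKN hgK) (mem_ctr.1 hb.mem).2
    have hyc : Commute y c := commute_of_fixedBy_of_supp hy (mem_ctr.1 hc.mem).1
    have hne : conjA g c ≠ c := fun h => hg (Subgroup.mem_inf.2 ⟨hgK, h⟩)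
    have h0 : y * c = 0 := by
      calc y * c = y * c * c := by rw [mul_assoc, hc.mul_self]
        _ = conjA g c * (y * c) := by
          conv_lhs => rw [(cosetPart_inCoset N g b).mul_ctr hc.mem]
          rw [mul_assoc]
        _ = 0 := by
          rw [hyc.eq, ← mul_assoc, (hc.conj (hKN hgK)).mul_eq_zero_of_ne hc hne, zero_mul]
    rw [← coeff_cosetPart_of_mem (N := N) (t := g) (by simp) (b * c),
      cosetPart_mul _ _ (mem_ctr.1 hc.mem).1, h0]
    simp
  have hcc : c * c = c := hc.mul_self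
  have hbcbc : b * c * (b * c) = b * c := by
    rw [mul_assoc b c (b * c), ← mul_assoc c b c, ← hcomm.eq, mul_assoc b c c, hcc, ← mul_assoc,
      hb.mul_self]
  have hblock : IsBlockIdem T (b * c) := by
    refine ⟨hbcT, hbcbc, hbc0, fun f hf hff => ?_⟩
    set f' := b * c * f with hf'
    have hf'm : f' ∈ ctr k T := mul_mem hbcT hf
    have hf'f' : f' * f' = f' := mul_idem hbcT hf hbcbc hff
    have hcf : c * f' = f' := by
      rw [hf', ← mul_assoc, ← mul_assoc, ← hcomm.eq, mul_assoc b c c, hcc]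
    set F := relTr T K f' with hF
    have hFm : F ∈ ctr k K := mem_ctr.2 ⟨relTr_mem_supp Subgroup.le_normalizer
      (supp_mono inf_le_left (mem_ctr.1 hf'm).1), relTr_mem_fixedBy _ _ (mem_ctr.1 hf'm).2⟩
    have hFc : F * c = f' := by
      haveI := Fintype.ofFinite (↥K ⧸ T.subgroupOf K)
      rw [hF, relTr_apply, Finset.sum_mul, Finset.sum_eq_single (QuotientGroup.mk (1 : K))]
      · rw [conjA_out (mem_ctr.1 hf'm).2, Subgroup.coe_one, conjA_one,
          (commute_of_fixedBy_of_supp (fixedBy_anti hNT (mem_ctr.1 hf'm).2)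
            (mem_ctr.1 hc.mem).1).eq, hcf]
      · intro q _ hq
        have hqK := (q.out : K).2
        have hne : conjA ((q.out : K) : G) c ≠ c := by
          intro h
          apply hq
          rw [← QuotientGroup.out_eq' q, QuotientGroup.eq, Subgroup.mem_subgroupOf]
          simpa using T.inv_mem (Subgroup.mem_inf.2 ⟨hqK, h⟩)
        have hcomm2 : Commute f' c := commute_of_fixedBy_of_supp
          (fixedBy_anti hNT (mem_ctr.1 hf'm).2) (mem_ctr.1 hc.mem).1
        rw [← hcf, ← hcomm2.eq, map_mul, mul_assoc,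
          (hc.conj (hKN hqK)).mul_eq_zero_of_ne hc hne, mul_zero]
      · exact fun h => absurd (Finset.mem_univ _) h
    have hFF : F * F = F := by
      conv_lhs => arg 2; rw [hF]
      rw [mul_relTr _ _ (mem_ctr.1 hFm).2]
      have : F * f' = f' := by
        rw [← hcf, ← mul_assoc, hFc, hf'f', hcf]
      rw [this]
    have hbF : b * F = F := by
      rw [hF, mul_relTr _ _ (mem_ctr.1 hb.mem).2, hf', ← mul_assoc, ← mul_assoc, hb.mul_self]
    rcases hb.2.2.2 F hFm hFF with h0 | h1
    · left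
      change f' = 0
      rw [← hFc, ← hbF, h0, zero_mul]
    · right
      change f' = b * c
      rw [← hFc, ← hbF, h1]
  exact hblock

variable {p : ℕ} [Fact p.Prime] [CharP k p]

/-- Two blocks matched by the Brauer map at their common defect group. -/
theorem brau_eq_of_defect {N H Q : Subgroup G} (hH : H = N ⊓ Subgroup.normalizer (Q : Set G))
    {d e : MonoidAlgebra k G} (hd : IsBlockIdem N d) (hdQ : IsDefectIn p N N d Q)
    (he : IsBlockIdem H e) (h : brau Q d * e = e) : brau Q d = e := by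
  have hcen : cenIn N Q = cenIn H Q := by
    rw [hH, cenIn, cenIn, inf_assoc, inf_eq_right.2 (Subgroup.centralizer_le_normalizer _)]
  have hN : N ⊓ Subgroup.normalizer (Q : Set G) = H ⊓ Subgroup.normalizer (Q : Set G) := by
    rw [hH, inf_assoc, inf_idem]
  obtain ⟨c, ⟨hc, hcD, hcb⟩, -⟩ := existsUnique_corr hcen hN hd hdQ
  have hHN : H ≤ Subgroup.normalizer (Q : Set G) := hH ▸ inf_le_right
  rw [brau_eq_self hdQ.2.1 hcD.1 hHN hc.mem hc.mul_self] at hcb
  rw [← hcb] at h ⊢
  exact hc.eq_of_mul_ne_zero he (by rw [h]; exact he.ne_zero)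

theorem existsUnique_brau_block {Q : Subgroup G} (hQ : IsPGroup p Q)
    {g : MonoidAlgebra k G} (hg : IsBlockIdem (Subgroup.normalizer (Q : Set G)) g) :
    ∃! b, IsBlockIdem (⊤ : Subgroup G) b ∧ brau Q b * g = g := by
  have hctr : ∀ b, IsBlockIdem (⊤ : Subgroup G) b →
      brau Q b ∈ ctr k (Subgroup.normalizer (Q : Set G)) := fun b hb => mem_ctr.2
    ⟨supp_mono (Subgroup.centralizer_le_normalizer _) (trunc_mem_supp _ _),
      trunc_mem_fixedBy (normalizer_le_normalizer_cen Q) (hb.fixed_of_le le_top)⟩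
  refine existsUnique_of_exists_of_unique ?_ ?_
  · obtain ⟨b, hb, hne⟩ := Finset.exists_ne_zero_of_sum_ne_zero
      (s := blockIdems k (⊤ : Subgroup G)) (f := fun b => brau Q b * g)
      (by rw [← Finset.sum_mul, ← map_sum, sum_blockIdems, trunc_eq_self (one_mem _), one_mul]
          exact hg.ne_zero)
    have hb' := mem_blockIdems.1 hb
    have hc := (ctr_commute (hctr b hb') hg.mem).eq
    refine ⟨b, hb', ?_⟩
    rcases hg.2.2.2 _ (hctr b hb') (brau_idem hQ (hb'.fixed_of_le le_top) hb'.mul_self) with h | h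
    · exact absurd (by rw [hc, h]) hne
    · rw [hc, h]
  · rintro b b' ⟨hb, h⟩ ⟨hb', h'⟩
    by_contra hne
    apply hg.ne_zero
    calc g = brau Q b * (brau Q b' * g) := by rw [h', h]
      _ = brau Q (b * b') * g := by
        rw [trunc_centralizer_mul hQ (hb.fixed_of_le le_top) (hb'.fixed_of_le le_top), mul_assoc]
      _ = 0 := by rw [hb.mul_eq_zero_of_ne hb' hne, map_zero, zero_mul]

section HarrisKnorr

variable {N Q : Subgroup G} (hN : (⊤ : Subgroup G) ≤ Subgroup.normalizer (N : Set G))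
  {d : MonoidAlgebra k G} (hd : IsBlockIdem N d) (hdQ : IsDefectIn p N N d Q)
  {e : MonoidAlgebra k G} (he : IsBlockIdem (N ⊓ Subgroup.normalizer (Q : Set G)) e)
  (heQ : IsDefectIn p (N ⊓ Subgroup.normalizer (Q : Set G))
    (N ⊓ Subgroup.normalizer (Q : Set G)) e Q)
  (hde : brau Q d = e)

include hd hdQ hde

theorem brau_mul_covered {b : MonoidAlgebra k G} (hb : IsBlockIdem (⊤ : Subgroup G) b) :
    brau Q (b * d) = brau Q b * e := by
  rw [trunc_centralizer_mul hdQ.2.1 (hb.fixed_of_le le_top) (hd.fixed_of_le hdQ.1), hde]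

include he in
theorem covers_of_brau {b g : MonoidAlgebra k G} (hb : IsBlockIdem (⊤ : Subgroup G) b)
    (hg : IsBlockIdem (Subgroup.normalizer (Q : Set G)) g) (hge : g * e ≠ 0)
    (hbg : brau Q b * g = g) : b * d ≠ 0 := by
  intro h0
  have h := brau_mul_covered hd hdQ hde hb
  rw [h0, map_zero] at h
  apply hge
  rw [(commute_of_fixedBy_of_supp (fixedBy_anti inf_le_right (mem_ctr.1 hg.mem).2)
    (mem_ctr.1 he.mem).1).eq, ← hbg, ← mul_assoc]
  have hbe : e * brau Q b = brau Q b * e := (commute_of_fixedBy_of_supp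
    (trunc_mem_fixedBy (inf_le_right.trans (normalizer_le_normalizer_cen Q))
      (hb.fixed_of_le le_top)) (mem_ctr.1 he.mem).1).symm.eq
  rw [hbe, ← h, zero_mul]

include hN he

theorem stab_iff {x : G} (hx : x ∈ Subgroup.normalizer (Q : Set G)) :
    conjA x d = d ↔ conjA x e = e := by
  constructor
  · intro h
    rw [← hde, brau, conjA_trunc (normalizer_le_normalizer_cen Q hx), h]
  · intro h
    refine ((hd.conj (hN (Subgroup.mem_top x))).eq_of_mul_ne_zero hd fun h0 => he.ne_zero ?_)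
    have hxQ : conjA x d ∈ fixedBy k Q := by
      have := conjA_mem_fixedBy_cj (c := x) (hd.fixed_of_le hdQ.1)
      rwa [cj_of_mem_normalizer hx] at this
    have hb := congrArg (brau Q) h0
    rw [trunc_centralizer_mul hdQ.2.1 hxQ (hd.fixed_of_le hdQ.1), map_zero] at hb
    rwa [show trunc (Subgroup.centralizer (Q : Set G)) (conjA x d) = e by
      rw [← conjA_trunc (normalizer_le_normalizer_cen Q hx),
        show trunc (Subgroup.centralizer (Q : Set G)) d = e from hde, h],
      show trunc (Subgroup.centralizer (Q : Set G)) d = e from hde, he.mul_self] at hb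

omit hd hdQ hde in
theorem exists_defect_over (heQ : IsDefectIn p (N ⊓ Subgroup.normalizer (Q : Set G))
    (N ⊓ Subgroup.normalizer (Q : Set G)) e Q) {g : MonoidAlgebra k G}
    (hg : IsBlockIdem (Subgroup.normalizer (Q : Set G)) g) (hge : g * e ≠ 0) :
    IsBlockIdem (Subgroup.normalizer (Q : Set G) ⊓ stabA e) (g * e) ∧
    ∃ P, IsDefectIn p (Subgroup.normalizer (Q : Set G) ⊓ stabA e)
      (Subgroup.normalizer (Q : Set G) ⊓ stabA e) (g * e) P ∧ P ⊓ N = Q := by
  set K := Subgroup.normalizer (Q : Set G) with hK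
  set H := N ⊓ K with hH
  set KT := K ⊓ stabA e
  have hKH : K ≤ Subgroup.normalizer (H : Set G) := fun x hx =>
    Subgroup.mem_normalizer_iff.2 fun u => by
      have h1 := Subgroup.mem_normalizer_iff.1 (hN (Subgroup.mem_top x)) u
      have h2 := Subgroup.mem_normalizer_iff.1 (Subgroup.le_normalizer hx) u
      simp only [hH, Subgroup.mem_inf]
      exact and_congr h1 h2
  have hblk : IsBlockIdem KT (g * e) := isBlockIdem_mul_stab inf_le_right hKH hg he hge
  obtain ⟨P, hP⟩ := exists_isDefectIn (p := p) (le_refl KT) Subgroup.le_normalizer hblk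
    (mem_ctr.1 hblk.mem).2
  have hHKT : H ≤ KT := le_inf inf_le_right (le_stabA_iff.2 (mem_ctr.1 he.mem).2)
  obtain ⟨c, hc, hne, -, hD, -, -⟩ := exists_covered hHKT (inf_le_left.trans hKH) hblk hP
  have hec : e = c := he.eq_of_mul_ne_zero hc fun h0 => hne (by rw [mul_assoc, h0, mul_zero])
  subst hec
  obtain ⟨n, hn, hnQ⟩ := heQ.exists_conj hD
  change P ⊓ H = cj n Q at hnQ
  rw [cj_of_mem_normalizer (show n ∈ Subgroup.normalizer (Q : Set G) from
    (Subgroup.mem_inf.1 hn).2)] at hnQ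
  refine ⟨hblk, P, hP, ?_⟩
  rw [← hnQ, hH, ← inf_assoc]
  exact (inf_eq_left.2 ((inf_le_left : P ⊓ N ≤ P).trans (hP.1.trans inf_le_left))).symm

include heQ

/-- Over a block of the normal subgroup there is one block of the normaliser for each block of
the whole group. -/
theorem existsUnique_harrisKnorr {b : MonoidAlgebra k G} (hb : IsBlockIdem (⊤ : Subgroup G) b)
    (hbd : b * d ≠ 0) :
    ∃! g, IsBlockIdem (Subgroup.normalizer (Q : Set G)) g ∧ g * e ≠ 0 ∧ brau Q b * g = g := by
  set K := Subgroup.normalizer (Q : Set G) with hK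
  set T := (⊤ : Subgroup G) ⊓ stabA d with hT
  set KT := K ⊓ stabA e with hKT
  have hQp := hdQ.2.1
  have hKC : K ≤ Subgroup.normalizer (Subgroup.centralizer (Q : Set G) : Set G) :=
    normalizer_le_normalizer_cen Q
  have hbrK : brau Q b ∈ ctr k K := mem_ctr.2
    ⟨supp_mono (Subgroup.centralizer_le_normalizer _) (trunc_mem_supp _ _),
      trunc_mem_fixedBy hKC (hb.fixed_of_le le_top)⟩
  have hbrid : brau Q b * brau Q b = brau Q b :=
    brau_idem hQp (hb.fixed_of_le le_top) hb.mul_self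
  have hβ : IsBlockIdem T (b * d) := isBlockIdem_mul_stab le_top hN hb hd hbd
  have hNT : N ≤ T := le_inf le_top (le_stabA_iff.2 (mem_ctr.1 hd.mem).2)
  have hKTT : KT ≤ T := fun x hx => Subgroup.mem_inf.2 ⟨Subgroup.mem_top x, mem_stabA.2
    ((stab_iff hN hd hdQ he hde (Subgroup.mem_inf.1 hx).1).2
      (mem_stabA.1 (Subgroup.mem_inf.1 hx).2))⟩
  refine existsUnique_of_exists_of_unique ?_ ?_
  · have hne : brau Q b * e ≠ 0 := by
      rw [← brau_mul_covered hd hdQ hde hb]
      exact brau_ne_zero_of_covers hNT (inf_le_left.trans hN) hd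
        (fun x hx => mem_stabA.1 (Subgroup.mem_inf.1 hx).2) hdQ hβ.mem hβ.mul_self hbd
        (by rw [mul_assoc, hd.mul_self])
    obtain ⟨g, hg, hgne⟩ := exists_isBlockIdem_mul_ne_zero K hne
    have hcomm : Commute g e := commute_of_fixedBy_of_supp
      (fixedBy_anti inf_le_right (mem_ctr.1 hg.mem).2) (mem_ctr.1 he.mem).1
    refine ⟨g, hg, fun h0 => hgne ?_, ?_⟩
    · rw [mul_assoc, ← hcomm.eq, h0, mul_zero]
    · rw [(ctr_commute hbrK hg.mem).eq]
      refine (hg.2.2.2 _ hbrK hbrid).resolve_left fun h0 => hgne ?_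
      rw [mul_assoc, ← hcomm.eq, ← mul_assoc, (ctr_commute hbrK hg.mem).eq, h0, zero_mul]
  · rintro g₁ g₂ ⟨hg₁, hge₁, hbg₁⟩ ⟨hg₂, hge₂, hbg₂⟩
    obtain ⟨hblk₁, P, hP, hPN⟩ := exists_defect_over hN he heQ hg₁ hge₁
    obtain ⟨hblk₂, P₂, hP₂, hP₂N⟩ := exists_defect_over hN he heQ hg₂ hge₂
    have hkey : ∀ g R, IsBlockIdem K g → g * e ≠ 0 → brau Q b * g = g → IsBlockIdem KT (g * e) →
        IsDefectIn p KT KT (g * e) R → R ⊓ N = Q →
        IsDefectIn p T T (b * d) R ∧ brau R (g * e) = brau R (b * d) ∧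
          cenIn T R = cenIn KT R ∧
          T ⊓ Subgroup.normalizer (R : Set G) = KT ⊓ Subgroup.normalizer (R : Set G) := by
      intro g R hg hge hbg hblk hR hRN
      have hQR : Q ≤ R := hRN.ge.trans inf_le_left
      have hback : ∀ x ∈ T, x ∈ K → x ∈ KT := fun x hx hxK => Subgroup.mem_inf.2
        ⟨hxK, mem_stabA.2 ((stab_iff hN hd hdQ he hde hxK).1
          (mem_stabA.1 (Subgroup.mem_inf.1 hx).2))⟩
      have hcen : cenIn T R = cenIn KT R := by
        refine le_antisymm (fun x hx => ?_) (inf_le_inf_right _ hKTT)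
        obtain ⟨hxT, hxC⟩ := Subgroup.mem_inf.1 hx
        exact Subgroup.mem_inf.2 ⟨hback x hxT (Subgroup.centralizer_le_normalizer _
          (Subgroup.centralizer_le (SetLike.coe_subset_coe.2 hQR) hxC)), hxC⟩
      have hnor : T ⊓ Subgroup.normalizer (R : Set G) =
          KT ⊓ Subgroup.normalizer (R : Set G) := by
        refine le_antisymm (fun x hx => ?_) (inf_le_inf_right _ hKTT)
        obtain ⟨hxT, hxR⟩ := Subgroup.mem_inf.1 hx
        refine Subgroup.mem_inf.2 ⟨hback x hxT (Subgroup.mem_normalizer_iff.2 fun u => ?_), hxR⟩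
        rw [← hRN]
        simp only [Subgroup.mem_inf]
        exact and_congr (Subgroup.mem_normalizer_iff.1 hxR u)
          (Subgroup.mem_normalizer_iff.1 (hN (Subgroup.mem_top x)) u)
      obtain ⟨β, ⟨hβ', hβD, hβb⟩, -⟩ := existsUnique_corr hcen.symm hnor.symm hblk hR
      have heq : b * d = β := by
        refine hβ.eq_of_mul_ne_zero hβ' fun h0 => ?_
        have hbe : brau Q b * e * (g * e) = g * e := by
          rw [mul_assoc, ← mul_assoc e g e, (commute_of_fixedBy_of_supp
            (fixedBy_anti inf_le_right (mem_ctr.1 hg.mem).2) (mem_ctr.1 he.mem).1).symm.eq,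
            mul_assoc g e e, he.mul_self, ← mul_assoc, hbg]
        have hbR : b * d ∈ fixedBy k R :=
          fixedBy_anti (hR.1.trans hKTT) (mem_ctr.1 hβ.mem).2
        have hβR : β ∈ fixedBy k R := hβ'.fixed_of_le (hR.1.trans hKTT)
        have hgR : g * e ∈ fixedBy k R := hblk.fixed_of_le hR.1
        have hQbR : brau Q b * e ∈ fixedBy k R :=
          mul_mem (fixedBy_anti (hR.1.trans inf_le_left) (mem_ctr.1 hbrK).2)
            (fun u hu => mem_stabA.1 (Subgroup.mem_inf.1 (hR.1 hu)).2)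
        have h1 := congrArg (brau R) h0
        rw [trunc_centralizer_mul hR.2.1 hbR hβR, map_zero] at h1
        apply hR.2.2.1
        rw [← h1]
        change brau R (g * e) = brau R (b * d) * brau R β
        rw [hβb, ← brau_brau_of_le hQR (b * d), brau_mul_covered hd hdQ hde hb, brau, brau,
          ← trunc_centralizer_mul hR.2.1 hQbR hgR, hbe]
      rw [← heq] at hβD hβb
      exact ⟨hβD, hβb.symm, hcen, hnor⟩
    obtain ⟨hD₁, hb₁, hcen, hnor⟩ := hkey g₁ P hg₁ hge₁ hbg₁ hblk₁ hP hPN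
    obtain ⟨hD₂, -, -, -⟩ := hkey g₂ P₂ hg₂ hge₂ hbg₂ hblk₂ hP₂ hP₂N
    obtain ⟨t, ht, rfl⟩ := hD₁.exists_conj hD₂
    have htK : t ∈ K := by
      refine Subgroup.mem_normalizer_iff.2 fun u => ?_
      have h3 : cj t Q = Q := by
        show cj t Q = Q
        conv_lhs => rw [← hPN]
        rw [cj_inf, cj_of_mem_normalizer (hN (Subgroup.mem_top t))]
        exact hP₂N
      constructor
      · intro hu
        rw [← h3]
        exact ⟨u, hu, rfl⟩
      · intro hu
        rw [← h3, mem_cj] at hu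
        simpa [mul_assoc] using hu
    have htKT : t⁻¹ ∈ KT := KT.inv_mem (Subgroup.mem_inf.2 ⟨htK, mem_stabA.2
      ((stab_iff hN hd hdQ he hde htK).1 (mem_stabA.1 (Subgroup.mem_inf.1 ht).2))⟩)
    have hP₂' : IsDefectIn p KT KT (g₂ * e) P := by
      have := hP₂.conj_cj t⁻¹
      rwa [cj_of_mem htKT, (mem_ctr.1 hblk₂.mem).2 _ htKT, ← cj_mul, inv_mul_cancel, cj_one] at this
    obtain ⟨-, hb₂, -, -⟩ := hkey g₂ P hg₂ hge₂ hbg₂ hblk₂ hP₂' hPN
    obtain ⟨γ, -, huniq⟩ := existsUnique_corr hcen hnor hβ hD₁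
    have heq : g₁ * e = g₂ * e :=
      (huniq _ ⟨hblk₁, hP, hb₁⟩).trans (huniq _ ⟨hblk₂, hP₂', hb₂⟩).symm
    refine hg₁.eq_of_mul_ne_zero hg₂ fun h0 => hblk₁.ne_zero ?_
    have hc₂ : Commute g₂ e := commute_of_fixedBy_of_supp
      (fixedBy_anti inf_le_right (mem_ctr.1 hg₂.mem).2) (mem_ctr.1 he.mem).1
    calc g₁ * e = g₁ * e * (g₂ * e) := by
          conv_lhs => rw [← hblk₁.mul_self]
          rw [heq]
      _ = g₁ * g₂ * e := by rw [mul_assoc g₁ e, ← mul_assoc e g₂ e, ← hc₂.eq, mul_assoc g₂ e e,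
          he.mul_self, mul_assoc]
      _ = 0 := by rw [h0, zero_mul]

end HarrisKnorr

end CfsgLib.BrauerPairs
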