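import Cfsg.Agent.Lib.BrauerPairs.Covering
import Cfsg.Agent.Lib.BrauerPairs.PIndex

/-!
# Stable blocks of normal `p'`-subgroups

The Brauer map sends a stable block of a `p'`-group to a block of the fixed points, and a stable
block of a normal `p'`-subgroup is a block of the whole group when the group is constrained
over it.
-/

noncomputable section

set_option linter.style.haveILetI false

namespace CfsgLib.BrauerPairs

open MonoidAlgebra Cfsg

section Groups

variable {G : Type*} [Group G] {p : ℕ}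

theorem exists_mul_eq_of_mem_sup {N R : Subgroup G} (hRN : R ≤ Subgroup.normalizer (N : Set G))
    {x : G} (hx : x ∈ N ⊔ R) : ∃ n ∈ N, ∃ r ∈ R, n * r = x := by
  have hx' : x ∈ ((N ⊔ R : Subgroup G) : Set G) := hx
  rw [Subgroup.coe_mul_of_right_le_normalizer_left _ _ hRN] at hx'
  exact hx'

theorem eq_one_of_mem_pPrime_pGroup [Finite G] [Fact p.Prime] {N R : Subgroup G}
    (hN : ¬ p ∣ Nat.card N) (hR : IsPGroup p R) {x : G} (hxN : x ∈ N) (hxR : x ∈ R) : x = 1 := by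
  obtain ⟨j, hj⟩ := IsPGroup.iff_orderOf.1 hR ⟨x, hxR⟩
  rw [Subgroup.orderOf_mk] at hj
  rcases Nat.eq_zero_or_pos j with rfl | hpos
  · exact orderOf_eq_one_iff.1 hj
  · refine absurd ((dvd_pow_self p hpos.ne').trans ?_) hN
    rw [← hj, ← Subgroup.orderOf_mk (H := N) x hxN]
    exact orderOf_dvd_natCard _

theorem card_sup_pPrime [Finite G] [Fact p.Prime] {N R : Subgroup G} (hN : ¬ p ∣ Nat.card N)
    (hR : IsPGroup p R) (hRN : R ≤ Subgroup.normalizer (N : Set G)) :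
    Nat.card ↥(N ⊔ R) = Nat.card N * Nat.card R := by
  rw [← Nat.card_prod]
  refine (Nat.card_congr (Equiv.ofBijective
    (fun x : N × R => (⟨(x.1 : G) * (x.2 : G), Subgroup.mul_mem _ (Subgroup.mem_sup_left x.1.2)
      (Subgroup.mem_sup_right x.2.2)⟩ : ↥(N ⊔ R))) ⟨?_, ?_⟩)).symm
  · rintro ⟨n, r⟩ ⟨n', r'⟩ h
    have h' : (n : G) * r = n' * r' := congrArg Subtype.val h
    have h1 : (n' : G)⁻¹ * n = r' * (r : G)⁻¹ := by
      rw [eq_mul_inv_iff_mul_eq, mul_assoc, h', inv_mul_cancel_left]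
    have h2 := eq_one_of_mem_pPrime_pGroup hN hR (N.mul_mem (N.inv_mem n'.2) n.2)
      (h1 ▸ R.mul_mem r'.2 (R.inv_mem r.2))
    have hn : (n : G) = n' := (inv_mul_eq_one.1 h2).symm
    rw [hn] at h'
    exact Prod.ext (Subtype.ext hn) (Subtype.ext (mul_left_cancel h'))
  · rintro ⟨x, hx⟩
    obtain ⟨n, hn, r, hr, rfl⟩ := exists_mul_eq_of_mem_sup hRN hx
    exact ⟨(⟨n, hn⟩, ⟨r, hr⟩), rfl⟩

theorem relIndex_sup_pPrime [Finite G] [Fact p.Prime] {N R : Subgroup G}
    (hN : ¬ p ∣ Nat.card N) (hR : IsPGroup p R) (hRN : R ≤ Subgroup.normalizer (N : Set G)) :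
    N.relIndex (N ⊔ R) = Nat.card R ∧ R.relIndex (N ⊔ R) = Nat.card N := by
  have hc := card_sup_pPrime hN hR hRN
  have h1 := Subgroup.relIndex_mul_relIndex ⊥ N (N ⊔ R) bot_le le_sup_left
  have h2 := Subgroup.relIndex_mul_relIndex ⊥ R (N ⊔ R) bot_le le_sup_right
  simp only [Subgroup.relIndex_bot_left, hc] at h1 h2
  exact ⟨Nat.eq_of_mul_eq_mul_left Nat.card_pos h1,
    Nat.eq_of_mul_eq_mul_left Nat.card_pos (h2.trans (mul_comm _ _))⟩

end Groups

variable {G : Type*} [Group G] [Finite G] {p : ℕ} {M : Ideal AlgInt} [hMp : M.IsPrime]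

/-- A stable block of a `p'`-group is a block with defect group `R` of its product with the
`p`-group `R`. -/
theorem isDefectIn_sup_of_pPrime (hM : IsPModular p M) {N R : Subgroup G}
    (hN : ¬ p ∣ Nat.card N) (hR : IsPGroup p R) (hRN : R ≤ Subgroup.normalizer (N : Set G))
    {c : MonoidAlgebra (Blocks.Res M) G} (hc : IsBlockIdem N c)
    (hcR : c ∈ fixedBy (Blocks.Res M) R) :
    IsBlockIdem (N ⊔ R) c ∧ IsDefectIn p (N ⊔ R) (N ⊔ R) c R ∧
      ∀ x ∈ N ⊔ R, ¬ p ∣ orderOf x → x ∈ N := by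
  haveI := Blocks.fact_of_isPModular hM
  haveI := Blocks.charP_res hM
  haveI : M.IsMaximal := hM.2.1
  obtain ⟨hidx, hidx'⟩ := relIndex_sup_pPrime hN hR hRN
  obtain ⟨j, hj⟩ := IsPGroup.iff_card.1 hR
  rw [hj] at hidx
  have hnorm : N ⊔ R ≤ Subgroup.normalizer (N : Set G) := sup_le Subgroup.le_normalizer hRN
  have hreg : ∀ x ∈ N ⊔ R, ¬ p ∣ orderOf x → x ∈ N := fun x hx =>
    mem_of_relIndex_eq_pow hM.1 hnorm hidx hx
  have hcH : c ∈ fixedBy (Blocks.Res M) (N ⊔ R) := by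
    intro x hx
    obtain ⟨n, hn, r, hr, rfl⟩ := exists_mul_eq_of_mem_sup hRN hx
    rw [conjA_mul, hcR r hr, (mem_ctr.1 hc.mem).2 n hn]
  have hblock := isBlockIdem_of_regular hM le_sup_left hreg hc hcH
  have hm : (R.relIndex (N ⊔ R) : Blocks.Res M) ≠ 0 := by
    rw [hidx', Ne, CharP.cast_eq_zero_iff (Blocks.Res M) p]
    exact hN
  have htr : relTr R (N ⊔ R) ((R.relIndex (N ⊔ R) : Blocks.Res M)⁻¹ • c) = c := by
    rw [map_smul, relTr_of_fixed _ _ hcH, smul_smul, inv_mul_cancel₀ hm, one_smul]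
  have hcR' : (R.relIndex (N ⊔ R) : Blocks.Res M)⁻¹ • c ∈ fixedBy (Blocks.Res M) R :=
    (fixedBy _ _).smul_mem hcR _
  refine ⟨hblock, ⟨le_sup_right, hR, ?_, _,
    (supp _ _).smul_mem (supp_mono le_sup_left (mem_ctr.1 hc.mem).1) _, hcR', htr⟩, hreg⟩
  -- some conjugate of a defect group fills `R`
  obtain ⟨P, hP⟩ := exists_isDefectIn (p := p) (le_refl (N ⊔ R)) Subgroup.le_normalizer hblock hcH
  have hsup := sup_eq_of_defect hM le_sup_left hnorm hidx hc hcH hP
  obtain ⟨h, hh, hPR⟩ := exists_conj_le_of_brau_relTr_ne_zero (H := R) (K := N ⊔ R) hP.2.1 hP.1 hcR'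
    (by rw [htr]; exact hP.2.2.1)
  have hP' := hP.conj_cj h⁻¹
  rw [cj_of_mem (Subgroup.inv_mem _ hh), hcH _ (Subgroup.inv_mem _ hh)] at hP'
  have hle : cj h⁻¹ P ≤ R := by
    intro u hu
    rw [mem_cj, inv_inv] at hu
    have := hPR _ hu
    simpa [mul_assoc] using this
  have hsup' := sup_eq_of_defect hM le_sup_left hnorm hidx hc hcH hP'
  have hPeq : cj h⁻¹ P = R := by
    refine le_antisymm hle fun r hr => ?_
    have hr' : r ∈ N ⊔ cj h⁻¹ P := by rw [sup_comm, hsup']; exact Subgroup.mem_sup_right hr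
    obtain ⟨n, hn, u, hu, rfl⟩ := exists_mul_eq_of_mem_sup (hle.trans hRN) hr'
    have : n = 1 := eq_one_of_mem_pPrime_pGroup hN hR hn (by
      have := R.mul_mem hr (R.inv_mem (hle hu))
      rwa [mul_inv_cancel_right] at this)
    rwa [this, one_mul]
  exact hPeq ▸ hP'.2.2.1

/-- The Brauer map sends a stable block of a `p'`-group to a block of the fixed points. -/
theorem isBlockIdem_brau_of_pPrime (hM : IsPModular p M) {N R : Subgroup G}
    (hN : ¬ p ∣ Nat.card N) (hR : IsPGroup p R) (hRN : R ≤ Subgroup.normalizer (N : Set G))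
    {c : MonoidAlgebra (Blocks.Res M) G} (hc : IsBlockIdem N c)
    (hcR : c ∈ fixedBy (Blocks.Res M) R) :
    IsBlockIdem (cenIn N R) (brau R c) := by
  classical
  haveI := Blocks.fact_of_isPModular hM
  haveI := Blocks.charP_res hM
  obtain ⟨hblock, hdef, hreg⟩ := isDefectIn_sup_of_pPrime hM hN hR hRN hc hcR
  set H := N ⊔ R with hH
  have hnorm : H ≤ Subgroup.normalizer (N : Set G) := sup_le Subgroup.le_normalizer hRN
  -- the pairs of `c` at `R` are maximal, hence conjugate, hence equal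
  have huniq : ∀ e e', IsMaxPair p H c R e → IsMaxPair p H c R e' → e = e' := by
    intro e e' he he'
    obtain ⟨n, hn, hnR, rfl⟩ := he.exists_conj hblock he'
    obtain ⟨k, hk, r, hr, rfl⟩ := exists_mul_eq_of_mem_sup hRN hn
    have hkC : k ∈ cenIn H R := by
      refine Subgroup.mem_inf.2 ⟨Subgroup.mem_sup_left hk, Subgroup.mem_centralizer_iff.2 ?_⟩
      intro u hu
      have hkR : ∀ w ∈ R, k * w * k⁻¹ ∈ R := by
        intro w hw
        have h1 : k * r * (r⁻¹ * w * r) * (k * r)⁻¹ ∈ cj (k * r) R := by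
          rw [mem_cj]
          simpa [mul_assoc] using R.mul_mem (R.inv_mem hr) (R.mul_mem hw hr)
        rw [← hnR] at h1
        simpa [mul_assoc] using h1
      have h2 : k * u * k⁻¹ * u⁻¹ ∈ N := by
        rw [show k * u * k⁻¹ * u⁻¹ = k * (u * k⁻¹ * u⁻¹) by group]
        exact N.mul_mem hk ((Subgroup.mem_normalizer_iff.1 (hRN hu) _).1 (N.inv_mem hk))
      have h3 := eq_one_of_mem_pPrime_pGroup hN hR h2 (R.mul_mem (hkR u hu) (R.inv_mem hu))
      rw [mul_inv_eq_one, mul_inv_eq_iff_eq_mul] at h3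
      exact h3.symm
    rw [conjA_mul, fixedBy_self_of_supp_cen he.1.1.supp_cen r hr,
      (mem_ctr.1 he.1.1.2.2.mem).2 k hkC]
  have hcfix : c ∈ fixedBy (Blocks.Res M) H := (mem_ctr.1 hblock.mem).2
  set t := brau R c with ht
  have hctr : t ∈ ctr (Blocks.Res M) (cenIn H R) :=
    brau_mem_ctr (mem_ctr.1 hblock.mem).1 (fixedBy_anti inf_le_left hcfix)
  have htt : t * t = t := by rw [ht, ← trunc_centralizer_mul hR hcR hcR, hc.mul_self]
  have ht0 : t ≠ 0 := hdef.2.2.1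
  obtain ⟨e, he, hne⟩ := exists_isBlockIdem_mul_ne_zero (cenIn H R) ht0
  have hmax : ∀ f, IsBlockIdem (cenIn H R) f → t * f = f → IsMaxPair p H c R f := fun f hf htf =>
    PairOf.isMaxPair_of_card ⟨⟨hR, le_sup_right, hf⟩, htf⟩ fun S g hg => by
      obtain ⟨x, -, hx⟩ := hdef.exists_conj_le hg.1.1 hg.1.2.1
        (fun h0 => hg.1.2.2.ne_zero (by rw [← hg.2, h0, zero_mul]))
      have := Subgroup.card_le_of_le (map_conj_inv_le hx)
      rwa [Subgroup.card_map_of_injective (MulAut.conj x).injective] at this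
  have hte : t * e = e := by
    rcases he.2.2.2 t hctr htt with h | h
    · exact absurd ((ctr_commute hctr he.mem).eq.trans h) hne
    · exact (ctr_commute hctr he.mem).eq.trans h
  have hteq : t = e := by
    rw [← mul_one t, ← sum_blockIdems (k := Blocks.Res M) (cenIn H R), Finset.mul_sum,
      Finset.sum_eq_single e]
    · exact hte
    · intro f hf hfe
      have hf' := mem_blockIdems.1 hf
      rcases hf'.2.2.2 t hctr htt with h | h
      · rw [(ctr_commute hctr hf'.mem).eq, h]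
      · have htf := (ctr_commute hctr hf'.mem).eq.trans h
        exact absurd (huniq f e (hmax f hf' htf) (hmax e he hte)) hfe
    · exact fun h => absurd (mem_blockIdems.2 he) h
  have hle : cenIn N R ≤ cenIn H R := inf_le_inf_right _ le_sup_left
  refine ⟨mem_ctr.2 ⟨fun g hg => ?_, fixedBy_anti hle (mem_ctr.1 hctr).2⟩, htt, ht0,
    fun f hf hff => ?_⟩
  · by_cases hgC : g ∈ Subgroup.centralizer (R : Set G)
    · rw [ht, brau, coeff_trunc_of_mem hgC]
      exact (mem_ctr.1 hc.mem).1 g fun hgN => hg (Subgroup.mem_inf.2 ⟨hgN, hgC⟩)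
    · rw [ht, brau, coeff_trunc_of_not_mem hgC]
  have hfC : f ∈ supp (Blocks.Res M) (Subgroup.centralizer (R : Set G)) :=
    supp_mono inf_le_right (mem_ctr.1 hf).1
  rw [hteq]
  refine he.2.2.2 f (mem_ctr.2 ⟨supp_mono hle (mem_ctr.1 hf).1, fun x hx => ?_⟩) hff
  obtain ⟨hxH, hxC⟩ := Subgroup.mem_inf.1 hx
  obtain ⟨n, hn, r, hr, rfl⟩ := exists_mul_eq_of_mem_sup hRN hxH
  have hnC : n ∈ cenIn N R := by
    refine Subgroup.mem_inf.2 ⟨hn, Subgroup.mem_centralizer_iff.2 fun u hu => ?_⟩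
    have hu' : r * u * r⁻¹ ∈ R := R.mul_mem (R.mul_mem hr hu) (R.inv_mem hr)
    have h2 : n * (r * u * r⁻¹) * n⁻¹ = u := by
      have := Subgroup.mem_centralizer_iff.1 hxC u hu
      calc n * (r * u * r⁻¹) * n⁻¹ = n * r * u * (n * r)⁻¹ := by group
        _ = u := by rw [← this]; group
    have h3 : n * (r * u * r⁻¹) * n⁻¹ * (r * u * r⁻¹)⁻¹ ∈ N := by
      rw [show n * (r * u * r⁻¹) * n⁻¹ * (r * u * r⁻¹)⁻¹ =
        n * ((r * u * r⁻¹) * n⁻¹ * (r * u * r⁻¹)⁻¹) by group]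
      exact N.mul_mem hn ((Subgroup.mem_normalizer_iff.1 (hRN hu') _).1 (N.inv_mem hn))
    rw [h2] at h3
    have h4 := mul_inv_eq_one.1 (eq_one_of_mem_pPrime_pGroup hN hR h3
      (R.mul_mem hu (R.inv_mem hu')))
    rw [← h4] at h2
    rw [mul_inv_eq_iff_eq_mul] at h2
    exact h2.symm
  rw [conjA_mul, fixedBy_self_of_supp_cen hfC r hr, (mem_ctr.1 hf).2 n hnC]

/-- A stable block of a normal `p'`-subgroup is a block of the group when some `p`-subgroup
centralizes no further `p`-regular element. -/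
theorem isBlockIdem_of_self_centralizing (hM : IsPModular p M) {N Q H : Subgroup G}
    (hN : ¬ p ∣ Nat.card N) (hQ : IsPGroup p Q) (hNH : N ≤ H) (hQH : Q ≤ H)
    (hHN : H ≤ Subgroup.normalizer (N : Set G))
    (hHL : H ≤ Subgroup.normalizer ((N ⊔ Q : Subgroup G) : Set G))
    (hreg : ∀ x ∈ H ⊓ Subgroup.centralizer (Q : Set G), ¬ p ∣ orderOf x → x ∈ N)
    {c : MonoidAlgebra (Blocks.Res M) G} (hc : IsBlockIdem N c)
    (hcH : c ∈ fixedBy (Blocks.Res M) H) :
    IsBlockIdem H c := by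
  haveI := Blocks.fact_of_isPModular hM
  haveI := Blocks.charP_res hM
  have hQN : Q ≤ Subgroup.normalizer (N : Set G) := hQH.trans hHN
  have hcQ := fixedBy_anti hQH hcH
  obtain ⟨hblock, hdef, -⟩ := isDefectIn_sup_of_pPrime hM hN hQ hQN hc hcQ
  have he := isBlockIdem_brau_of_pPrime hM hN hQ hQN hc hcQ
  have hcctr : c ∈ ctr (Blocks.Res M) H := mem_ctr.2 ⟨supp_mono hNH (mem_ctr.1 hc.mem).1, hcH⟩
  refine ⟨hcctr, hc.mul_self, hc.ne_zero, fun f hf hff => ?_⟩
  by_contra hcon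
  push Not at hcon
  have key : ∀ b ∈ ctr (Blocks.Res M) H, b * b = b → b ≠ 0 → b * c = b →
      brau Q b = brau Q c := by
    intro b hb hbb hb0 hbc
    have hne := brau_ne_zero_of_covers (sup_le hNH hQH) hHL hblock hcH hdef hb hbb hb0 hbc
    have hbQ := fixedBy_anti hQH (mem_ctr.1 hb).2
    have hbc' : brau Q b * brau Q c = brau Q b := by
      rw [← trunc_centralizer_mul hQ hbQ hcQ, hbc]
    have hidem : brau Q b * brau Q b = brau Q b := by
      rw [← trunc_centralizer_mul hQ hbQ hbQ, hbb]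
    have hmem : brau Q b ∈ ctr (Blocks.Res M) (cenIn H Q) :=
      brau_mem_ctr (mem_ctr.1 hb).1 (fixedBy_anti inf_le_left (mem_ctr.1 hb).2)
    have hmem' : brau Q b ∈ ctr (Blocks.Res M) (cenIn N Q) := by
      refine mem_ctr.2 ⟨mem_supp_of_regular hM (fun x hx hxreg => Subgroup.mem_inf.2
        ⟨hreg x hx hxreg, (Subgroup.mem_inf.1 hx).2⟩) hmem hidem,
        fixedBy_anti (inf_le_inf_right _ hNH) (mem_ctr.1 hmem).2⟩
    rcases he.2.2.2 _ hmem' hidem with h | h
    · rw [(ctr_commute hmem' he.mem).eq] at hbc'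
      · exact absurd (hbc'.symm.trans h) hne
    · rw [(ctr_commute hmem' he.mem).eq, h] at hbc'
      exact hbc'.symm
  set f1 := c * f with hf1
  have hf1m : f1 ∈ ctr (Blocks.Res M) H := mul_mem hcctr hf
  have hf1i : f1 * f1 = f1 := mul_idem hcctr hf hc.mul_self hff
  have hf1c : f1 * c = f1 := by
    rw [(ctr_commute hf1m hcctr).eq, hf1, ← mul_assoc, hc.mul_self]
  set f2 := c - f1 with hf2
  have hf2m : f2 ∈ ctr (Blocks.Res M) H := sub_mem hcctr hf1m
  have hcf1 : c * f1 = f1 := by rw [hf1, ← mul_assoc, hc.mul_self]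
  have hf2i : f2 * f2 = f2 := by
    rw [hf2, sub_mul, mul_sub, mul_sub, hc.mul_self, hcf1, hf1c, hf1i]
    abel
  have hf2c : f2 * c = f2 := by rw [hf2, sub_mul, hc.mul_self, hf1c]
  have h1 := key f1 hf1m hf1i hcon.1 hf1c
  have h2 := key f2 hf2m hf2i (sub_ne_zero.2 (Ne.symm hcon.2)) hf2c
  rw [hf2, map_sub, h1, sub_self] at h2
  exact he.ne_zero h2.symm

end CfsgLib.BrauerPairs
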