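import Cfsg.Agent.Lib.BrauerPairs.QuotLocal
import Cfsg.Agent.Lib.BlockStar.Nonvanishing

/-!
# Correlations of the generalised decomposition numbers outside the central subgroup
-/

set_option autoImplicit false
set_option linter.style.haveILetI false
set_option linter.unusedSectionVars false

namespace CfsgLib.BrauerPairs

open Cfsg CfsgLib.Blocks MonoidAlgebra Finset
open CfsgLib.BlockStar (val blocksAt ppart)
open CfsgLib.BlockSections (belowBlock)
open CfsgLib.BrauerCharacters (centralVal cenElem)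
open scoped ComplexConjugate

/-- The second orthogonality relation as a count of conjugating elements. -/
theorem sum_irr_mul_conj_eq_count {G : Type*} [Group G] [Fintype G] [Fintype (IrrCharacter G)]
    [DecidableEq G] (g h : G) :
    ∑ χ : IrrCharacter G, (χ : G → ℂ) g * conj ((χ : G → ℂ) h) =
      ∑ x : G, if x * g * x⁻¹ = h then (1 : ℂ) else 0 := by
  classical
  rw [CharTheory.sum_mul_conj, sum_boole]
  split_ifs with hc
  · obtain ⟨x₀, hx₀⟩ := isConj_iff.1 hc
    haveI := Fintype.ofFinite (Subgroup.centralizer ({g} : Set G))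
    congr 1
    rw [Nat.card_eq_fintype_card, ← card_univ]
    refine card_bij' (fun c _ => x₀ * (c : G))
      (fun x hx => ⟨x₀⁻¹ * x, Subgroup.mem_centralizer_singleton_iff.2 ?_⟩)
      (fun c _ => mem_filter.2 ⟨mem_univ _, ?_⟩) (fun _ _ => mem_univ _)
      (fun c _ => Subtype.ext (inv_mul_cancel_left _ _)) (fun x _ => mul_inv_cancel_left _ _)
    · have hx' := (mem_filter.1 hx).2
      rw [← hx₀, mul_inv_eq_iff_eq_mul] at hx'
      rw [mul_assoc, hx']
      group
    · rw [show x₀ * c * g * (x₀ * (c : G))⁻¹ = x₀ * ((c : G) * g * (c : G)⁻¹) * x₀⁻¹ by group,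
        Subgroup.mem_centralizer_singleton_iff.1 c.2, mul_inv_cancel_right, hx₀]
  · rw [filter_eq_empty_iff.2 fun x _ hx => hc (isConj_iff.2 ⟨x, hx⟩)]
    simp

theorem card_centralizer_conj {G : Type*} [Group G] [Finite G] (x z : G) :
    Nat.card (Subgroup.centralizer ({x * z * x⁻¹} : Set G)) =
      Nat.card (Subgroup.centralizer ({z} : Set G)) := by
  rw [BlockSections.centralizer_cj_singleton,
    Subgroup.card_map_of_injective (MulAut.conj x).injective]

variable {G : Type*} [Group G] [Fintype G] {p : ℕ} [hp : Fact p.Prime] {M : Ideal AlgInt}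
  [hMp : M.IsPrime] [CharP (Blocks.Res M) p] [IsAlgClosed (Blocks.Res M)]
  {B : Set (IrrCharacter G)} {D : Subgroup G}
  {e : MonoidAlgebra (Blocks.Res M) G} {Z : Subgroup G} {v : G} [Fintype (D →* ℂˣ)]
  {mm : IrrCharacter G → (D →* ℂˣ) → ℤ} {τ : G → G → ℂ}

open scoped Classical in
/-- The generalised decomposition number. -/
noncomputable def qdec (mm : IrrCharacter G → (D →* ℂˣ) → ℤ) (η : IrrCharacter G) (z : G) : ℂ :=
  if hz : z ∈ D then ∑ lam : D →* ℂˣ, (mm η lam : ℂ) * (lam ⟨z, hz⟩ : ℂ) else 0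

theorem qdec_of_mem (η : IrrCharacter G) {z : G} (hz : z ∈ D) :
    qdec mm η z = ∑ lam : D →* ℂˣ, (mm η lam : ℂ) * (lam ⟨z, hz⟩ : ℂ) := dif_pos hz

namespace QuotData

variable (Q : QuotData p M B D e Z v mm τ)
include Q

theorem val_eq (η : IrrCharacter G) {z : G} (hz : z ∈ D) (hzn : z ∉ Z) {g : G}
    (hg : IsPPart p g z) :
    val η g (subIdem M _ (belowBlock (M := M) p D e z)) = qdec mm η z * τ z g := by
  rw [qdec_of_mem η hz]
  exact Q.value η z hz hzn g hg

theorem below_mem {z : G} (hz : z ∈ D) :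
    subIdem M _ (belowBlock (M := M) p D e z) ∈ blocksAt M z :=
  mem_blockIdems.2
    ((BlockSections.belowBlock_spec Q.setting.modular Q.setting.block Q.setting.max hz).2.1.isPair_left
      Q.setting.max.1.1).2.2

theorem exists_tau_ne {z : G} (hz : z ∈ D) (hzn : z ∉ Z) : ∃ g, IsPPart p g z ∧ τ z g ≠ 0 := by
  by_contra hno
  push Not at hno
  have h := Q.norm z hz hzn
  rw [sum_eq_zero fun g hg => by rw [hno g (mem_secSet.1 hg), zero_mul], eq_comm, div_eq_zero_iff,
    Nat.cast_eq_zero, Nat.cast_eq_zero] at h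
  exact h.elim Nat.card_pos.ne' Nat.card_pos.ne'

theorem qdec_ne_zero {η : IrrCharacter G} (hη : η ∈ B) {z : G} (hz : z ∈ D) (hzn : z ∉ Z) :
    qdec mm η z ≠ 0 := by
  have hM := Q.setting.modular
  haveI : M.IsMaximal := hM.2.1
  obtain ⟨c, g, hc, hg, hne⟩ := BlockStar.exists_val_ne_zero_of_central hM Q.setting.block
    Q.setting.max hη hz
    (Subgroup.mem_centralizer_iff.2 fun d hd => Q.setting.comm d hd z hz)
  obtain ⟨-, hle, -⟩ := BlockSections.belowBlock_spec hM Q.setting.block Q.setting.max hz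
  rw [(existsUnique_pairLE Q.setting.max.1.1 hle.le).unique hc hle,
    Q.val_eq η hz hzn (hg ▸ BlockStar.ppart_spec g)] at hne
  exact left_ne_zero_of_mul hne

theorem qdec_eq_zero {η : IrrCharacter G} (hη : η ∉ B) {z : G} (hz : z ∈ D) (hzn : z ∉ Z) :
    qdec mm η z = 0 := by
  have hM := Q.setting.modular
  obtain ⟨g, hg, hne⟩ := Q.exists_tau_ne hz hzn
  have hb := Q.setting.hb
  obtain ⟨-, hle, -⟩ := BlockSections.belowBlock_spec hM Q.setting.block Q.setting.max hz
  have hu : ppart p g = z := BlockStar.ppart_eq hg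
  have h0 : val η g (subIdem M _ (belowBlock (M := M) p D e z)) = 0 := by
    refine BlockStar.val_eq_zero_of_not_pairOf hM (isPBlock_blockOf η) (mem_blockOf_self η)
      (by rw [hu]; exact (hle.isPair_left Q.setting.max.1.1).2.2) fun h => hη ?_
    rw [hu] at h
    have heq := (existsUnique_pairOf h.1).unique
      ⟨hb, (hle.pairOf_iff hb).2 Q.setting.max.1⟩
      ⟨isBlockIdem_redElem_blockCoeff (isPBlock_blockOf η), h⟩
    rw [redElem_blockCoeff_injective Q.setting.block (isPBlock_blockOf η) heq]
    exact mem_blockOf_self η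
  rw [Q.val_eq η hz hzn hg] at h0
  exact (mul_eq_zero.1 h0).resolve_right hne

theorem qdec_mul_central (η : IrrCharacter G) {z u : G} (hz : z ∈ D) (hu : u ∈ Z) :
    qdec mm η (z * u) = centralVal (η : G → ℂ) u * qdec mm η z := by
  have huD := Q.setting.zle hu
  rw [qdec_of_mem η (D.mul_mem hz huD), qdec_of_mem η hz, mul_sum]
  refine sum_congr rfl fun lam _ => ?_
  by_cases h : mm η lam = 0
  · simp [h]
  · rw [show (⟨z * u, D.mul_mem hz huD⟩ : D) = ⟨z, hz⟩ * ⟨u, huD⟩ from rfl, map_mul,
      Units.val_mul, Q.central η lam h u huD hu]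
    ring

/-- The column of a subsection. -/
theorem qdec_column (η : IrrCharacter G) {z : G} (hz : z ∈ D) (hzn : z ∉ Z) :
    qdec mm η z * ((Nat.card (Subgroup.centralizer ({z} : Set G)) : ℂ) / (Nat.card D : ℂ)) =
      ∑ g ∈ secSet p z, (η : G → ℂ) g * conj (τ z g) := by
  classical
  have hM := Q.setting.modular
  obtain ⟨η₀, hη₀⟩ := Blocks.isPBlock_nonempty Q.setting.block
  have hr : conj (qdec mm η₀ z) ≠ 0 := by simpa using Q.qdec_ne_zero hη₀ hz hzn
  refine mul_left_cancel₀ hr ?_
  have h := BlockStar.sum_secSet_mul_conj hM (Q.setting.isPElem hz) (fun _ => 1)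
    (fun c => if c = subIdem M _ (belowBlock (M := M) p D e z) then 1 else 0) η η₀
  simp only [one_mul, ite_mul, zero_mul, apply_ite conj, map_one, map_zero, sum_ite_eq',
    Q.below_mem hz, if_true, BlockStar.secPairing] at h
  rw [← Q.norm z hz hzn, mul_sum, mul_sum, mul_sum]
  calc ∑ g ∈ secSet p z, conj (qdec mm η₀ z) * (qdec mm η z * (τ z g * conj (τ z g)))
      = ∑ g ∈ secSet p z, val η g (subIdem M _ (belowBlock (M := M) p D e z)) *
          conj (val η₀ g (subIdem M _ (belowBlock (M := M) p D e z))) :=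
        sum_congr rfl fun g hg => by
          rw [Q.val_eq η hz hzn (mem_secSet.1 hg), Q.val_eq η₀ hz hzn (mem_secSet.1 hg), map_mul]
          ring
    _ = _ := h.symm
    _ = _ := sum_congr rfl fun g hg => by
          rw [BlockStar.apply_eq_sum_val (M := M) (p := p) η g,
            BlockStar.ppart_eq (mem_secSet.1 hg), Q.val_eq η₀ hz hzn (mem_secSet.1 hg), map_mul]
          ring

/-- Sections carrying different pairs do not meet. -/
theorem cross_eq_zero {z z' x : G} (hz : z ∈ D) (hzn : z ∉ Z) (hz' : z' ∈ D) (hzn' : z' ∉ Z)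
    (hx : x * z * x⁻¹ = z') (hne : conjA x (subIdem M _ (belowBlock (M := M) p D e z)) ≠
      subIdem M _ (belowBlock (M := M) p D e z')) :
    ∑ g ∈ secSet p z, τ z' (x * g * x⁻¹) * conj (τ z g) = 0 := by
  classical
  have hM := Q.setting.modular
  obtain ⟨η₀, hη₀⟩ := Blocks.isPBlock_nonempty Q.setting.block
  have hr := Q.qdec_ne_zero hη₀ hz' hzn'
  have hr2 : conj (qdec mm η₀ z) ≠ 0 := by simpa using Q.qdec_ne_zero hη₀ hz hzn
  refine mul_left_cancel₀ hr2 (mul_left_cancel₀ hr ?_)
  rw [mul_zero, mul_zero, mul_sum, mul_sum]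
  set β := subIdem M _ (belowBlock (M := M) p D e z) with hβ
  set c := conjA x⁻¹ (subIdem M _ (belowBlock (M := M) p D e z')) with hcdef
  have hcb : IsBlockIdem (cenIn (⊤ : Subgroup G) (Subgroup.zpowers z)) c := by
    have h1 := mem_blockIdems.1 (Q.below_mem hz')
    rw [BlockStar.cenIn_zpowers] at h1 ⊢
    have h2 := h1.conj_cj x⁻¹
    rwa [← BlockSections.centralizer_cj_singleton,
      show x⁻¹ * z' * x⁻¹⁻¹ = z by rw [← hx]; group] at h2
  have hcβ : c ≠ β := fun h => hne (by rw [← h, hcdef, conjA_conjA_inv])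
  have hval : ∀ g, IsPPart p g z →
      qdec mm η₀ z' * τ z' (x * g * x⁻¹) = val η₀ g c := by
    intro g hg
    rw [← Q.val_eq η₀ hz' hzn' (hx ▸ Blocks.IsPPart.conj hg x)]
    have hu : ppart p g = z := BlockStar.ppart_eq hg
    have hcb' : IsBlockIdem (cenIn (⊤ : Subgroup G) (Subgroup.zpowers (ppart p g))) c := by
      rwa [hu]
    have h := BlockStar.val_conj η₀ x hcb.mul_self (BlockStar.commute_block hcb' c).1
    rwa [hcdef, conjA_conjA_inv] at h
  have h := BlockStar.sum_secSet_mul_conj hM (Q.setting.isPElem hz)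
    (fun d => if d = c then 1 else 0) (fun d => if d = β then 1 else 0) η₀ η₀
  simp only [ite_mul, one_mul, zero_mul, apply_ite conj, map_one, map_zero, sum_ite_eq',
    mul_ite, mul_one, mul_zero, Q.below_mem hz, if_true, hcβ, hcβ.symm, if_false,
    show c ∈ blocksAt M z from mem_blockIdems.2 hcb,
    show β ∈ blocksAt M z from Q.below_mem hz] at h
  rw [← h]
  refine sum_congr rfl fun g hg => ?_
  rw [← hval g (mem_secSet.1 hg), Q.val_eq η₀ hz hzn (mem_secSet.1 hg), map_mul]
  ring

open scoped Classical in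
/-- Two columns. -/
theorem sum_qdec_mul_conj [Fintype (IrrCharacter G)] {z z' : G} (hz : z ∈ D) (hzn : z ∉ Z)
    (hz' : z' ∈ D) (hzn' : z' ∉ Z) :
    ∑ η : IrrCharacter G, qdec mm η z * conj (qdec mm η z') =
      if ∃ t ∈ pairStab (⊤ : Subgroup G) D e, t * z * t⁻¹ = z' then (Nat.card D : ℂ) else 0 := by
  have hM := Q.setting.modular
  set Nz : ℂ := (Nat.card (Subgroup.centralizer ({z} : Set G)) : ℂ) / (Nat.card D : ℂ) with hNz
  set Nz' : ℂ := (Nat.card (Subgroup.centralizer ({z'} : Set G)) : ℂ) / (Nat.card D : ℂ) with hNz'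
  have hN0 : Nz ≠ 0 := div_ne_zero (Nat.cast_ne_zero.2 Nat.card_pos.ne')
    (Nat.cast_ne_zero.2 Nat.card_pos.ne')
  have hN0' : Nz' ≠ 0 := div_ne_zero (Nat.cast_ne_zero.2 Nat.card_pos.ne')
    (Nat.cast_ne_zero.2 Nat.card_pos.ne')
  refine mul_left_cancel₀ (mul_ne_zero hN0 hN0') ?_
  have hconj : conj Nz' = Nz' := by rw [hNz', map_div₀, map_natCast, map_natCast]
  calc Nz * Nz' * ∑ η : IrrCharacter G, qdec mm η z * conj (qdec mm η z')
      = ∑ η : IrrCharacter G, (qdec mm η z * Nz) * conj (qdec mm η z' * Nz') := by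
        rw [mul_sum]; exact sum_congr rfl fun η _ => by rw [map_mul, hconj]; ring
    _ = ∑ η : IrrCharacter G, ∑ g ∈ secSet p z, ∑ h ∈ secSet p z',
          (τ z' h * conj (τ z g)) * ((η : G → ℂ) g * conj ((η : G → ℂ) h)) := by
        refine sum_congr rfl fun η _ => ?_
        rw [Q.qdec_column η hz hzn, Q.qdec_column η hz' hzn', map_sum, sum_mul_sum]
        exact sum_congr rfl fun g _ => sum_congr rfl fun h _ => by
          rw [map_mul, Complex.conj_conj]; ring
    _ = ∑ g ∈ secSet p z, ∑ h ∈ secSet p z', (τ z' h * conj (τ z g)) *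
          ∑ x : G, (if x * g * x⁻¹ = h then (1 : ℂ) else 0) := by
        rw [sum_comm]
        refine sum_congr rfl fun g _ => ?_
        rw [sum_comm]
        refine sum_congr rfl fun h _ => ?_
        rw [← mul_sum, sum_irr_mul_conj_eq_count]
    _ = ∑ x : G, ∑ g ∈ secSet p z, if x * g * x⁻¹ ∈ secSet p z' then
          τ z' (x * g * x⁻¹) * conj (τ z g) else 0 := by
        simp only [mul_sum, mul_ite, mul_one, mul_zero]
        rw [sum_comm (s := (univ : Finset G))]
        refine sum_congr rfl fun g _ => ?_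
        rw [sum_comm]
        exact sum_congr rfl fun x _ => sum_ite_eq _ _ _
    _ = ∑ x : G, if x * z * x⁻¹ = z' then
          ∑ g ∈ secSet p z, τ z' (x * g * x⁻¹) * conj (τ z g) else 0 := by
        refine sum_congr rfl fun x _ => ?_
        split_ifs with hx
        · exact sum_congr rfl fun g hg => if_pos
            (mem_secSet.2 (hx ▸ Blocks.IsPPart.conj (mem_secSet.1 hg) x))
        · exact sum_eq_zero fun g hg => if_neg fun h => hx (Blocks.IsPPart.unique
            (Blocks.IsPPart.conj (mem_secSet.1 hg) x) (mem_secSet.1 h))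
    _ = _ := by
      split_ifs with hex
      · obtain ⟨t, ht, rfl⟩ := hex
        rw [sum_congr rfl (g := fun x : G => if x * z * x⁻¹ = t * z * t⁻¹ then Nz else 0)
          fun x _ => ?_]
        · rw [← sum_filter, sum_const, nsmul_eq_mul, hNz']
          have hcard : ((univ.filter fun x : G => x * z * x⁻¹ = t * z * t⁻¹).card : ℂ) =
              Nat.card (Subgroup.centralizer ({z} : Set G)) := by
            rw [Nat.cast_inj]
            haveI := Fintype.ofFinite (Subgroup.centralizer ({z} : Set G))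
            rw [Nat.card_eq_fintype_card, ← card_univ]
            symm
            refine card_bij' (fun (c : Subgroup.centralizer ({z} : Set G)) _ => t * (c : G))
              (fun x hx => ⟨t⁻¹ * x, Subgroup.mem_centralizer_singleton_iff.2 ?_⟩)
              (fun c _ => mem_filter.2 ⟨mem_univ _, ?_⟩) (fun _ _ => mem_univ _)
              (fun c _ => Subtype.ext (inv_mul_cancel_left _ _))
              (fun x _ => mul_inv_cancel_left _ _)
            · have hx' := mul_inv_eq_iff_eq_mul.1 (mem_filter.1 hx).2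
              rw [mul_assoc, hx']
              group
            · rw [show t * c * z * (t * (c : G))⁻¹ = t * ((c : G) * z * (c : G)⁻¹) * t⁻¹ by group,
                Subgroup.mem_centralizer_singleton_iff.1 c.2, mul_inv_cancel_right]
          rw [hcard, card_centralizer_conj]
          field_simp
        · split_ifs with hx
          · rw [hNz, ← Q.norm z hz hzn]
            refine sum_congr rfl fun g hg => ?_
            have hc : x * t⁻¹ ∈ Subgroup.centralizer ({t * z * t⁻¹} : Set G) :=
              Subgroup.mem_centralizer_singleton_iff.2 (by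
                rw [← mul_inv_eq_iff_eq_mul]
                calc x * t⁻¹ * (t * z * t⁻¹) * (x * t⁻¹)⁻¹ = x * z * x⁻¹ := by group
                  _ = _ := hx)
            rw [show x * g * x⁻¹ = x * t⁻¹ * (t * g * t⁻¹) * (x * t⁻¹)⁻¹ by group,
              Q.classFun _ hz' hzn' _ hc _ (Blocks.IsPPart.conj (mem_secSet.1 hg) t),
              Q.stable t ht z hz hzn g (mem_secSet.1 hg)]
          · rfl
      · rw [mul_zero, sum_eq_zero fun x _ => ?_]
        split_ifs with hx
        · exact Q.cross_eq_zero hz hzn hz' hzn' hx fun h => hex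
            (BlockSections.exists_stab_of_conj hM Q.setting.block Q.setting.max Q.setting.comm
              hz hz' hx h)
        · rfl

end QuotData

end CfsgLib.BrauerPairs
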