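import Cfsg.Agent.Lib.BrauerPairs.StarLattice
import Mathlib.GroupTheory.FiniteAbelian.Duality
import Mathlib.RingTheory.IntegralDomain
import Mathlib.Analysis.Complex.Polynomial.Basic
import Mathlib.RingTheory.RootsOfUnity.AlgebraicallyClosed
import Mathlib.Analysis.Complex.Basic

/-!
# Short vectors orthogonal to columns indexed by a commutative group

The columns are Fourier transforms of integral vectors and have the correlations of a free action
of a set of automorphisms.
-/

set_option autoImplicit false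
set_option linter.style.haveILetI false
set_option linter.unusedSectionVars false

namespace CfsgLib.BrauerPairs

open Finset
open scoped ComplexConjugate

variable {Y : Type*} [CommGroup Y] [Fintype Y]

theorem sum_hom_units_apply (l : Y →* ℂˣ) [Decidable (l = 1)] :
    ∑ y : Y, (l y : ℂ) = if l = 1 then (Fintype.card Y : ℂ) else 0 := by
  split_ifs with h
  · simp [h]
  · refine sum_hom_units_eq_zero ((Units.coeHom ℂ).comp l) fun h1 => h ?_
    ext y
    exact congrArg (fun f : Y →* ℂ => f y) h1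

theorem sum_apply_dual [Fintype (Y →* ℂˣ)] (y : Y) [Decidable (y = 1)] :
    ∑ l : Y →* ℂˣ, (l y : ℂ) = if y = 1 then (Fintype.card Y : ℂ) else 0 := by
  split_ifs with h
  · simp only [h, map_one, Units.val_one, sum_const, card_univ, nsmul_eq_mul, mul_one]
    rw [← Nat.card_eq_fintype_card, CommGroup.card_monoidHom_of_hasEnoughRootsOfUnity Y ℂ,
      Nat.card_eq_fintype_card]
  · obtain ⟨l₀, hl₀⟩ := CommGroup.exists_apply_ne_one_of_hasEnoughRootsOfUnity Y ℂ h
    refine eq_zero_of_mul_eq_self_left (b := (l₀ y : ℂ)) (fun h1 => hl₀ (Units.ext h1)) ?_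
    rw [mul_sum]
    exact Fintype.sum_equiv (Equiv.mulLeft l₀) _ _ fun l => by simp

theorem conj_unit_apply (l : Y →* ℂˣ) (y : Y) : conj (l y : ℂ) = (l⁻¹ y : ℂ) := by
  have h : ‖(l y : ℂ)‖ = 1 := by
    refine Complex.norm_eq_one_of_pow_eq_one (n := orderOf y) ?_
      (isOfFinOrder_of_finite y).orderOf_pos.ne'
    rw [← Units.val_pow_eq_pow_val, ← map_pow, pow_orderOf_eq_one, map_one, Units.val_one]
  have h2 := Complex.mul_conj' (l y : ℂ)
  rw [h, Complex.ofReal_one, one_pow] at h2
  rw [MonoidHom.inv_apply, Units.val_inv_eq_inv_val]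
  exact eq_inv_of_mul_eq_one_right h2

/-- Distinct automorphisms without common values differ on every nontrivial character. -/
theorem dual_free {w w' : MulAut Y} (h : ∀ y, w y = w' y → y = 1) {l : Y →* ℂˣ}
    (hl : l.comp w.toMonoidHom = l.comp w'.toMonoidHom) : l = 1 := by
  let f : Y →* Y := w.toMonoidHom / w'.toMonoidHom
  have hinj : Function.Injective f := (injective_iff_map_eq_one f).2 fun y hy =>
    h y (div_eq_one.1 (by simpa [f] using hy))
  refine MonoidHom.ext fun y => ?_
  obtain ⟨z, rfl⟩ := (Finite.injective_iff_surjective.1 hinj) y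
  have := congrArg (fun g : Y →* ℂˣ => g z) hl
  simp only [MonoidHom.comp_apply] at this
  show l (f z) = 1
  rw [show f z = w.toMonoidHom z / w'.toMonoidHom z from rfl, map_div, this, div_self']

/-- The short vectors. -/
theorem exists_short_fourier {ι : Type*} [Fintype ι] [Fintype (Y →* ℂˣ)] [Nontrivial Y]
    (W : Finset (MulAut Y)) (hone : 1 ∈ W)
    (hfree : ∀ w ∈ W, ∀ w' ∈ W, w ≠ w' → ∀ y, w y = w' y → y = 1)
    [DecidableEq Y] (m : ι → (Y →* ℂˣ) → ℤ) (d : ι → Y → ℂ)
    (hd : ∀ η y, d η y = ∑ l : Y →* ℂˣ, (m η l : ℂ) * (l y : ℂ))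
    (hcor : ∀ i j : Y, i ≠ 1 → j ≠ 1 → ∑ η, d η i * conj (d η j) =
      (Fintype.card Y : ℂ) * (W.filter fun w => w i = j).card)
    (hnz : ∀ η, ∃ i, i ≠ 1 ∧ d η i ≠ 0) :
    ∃ (n : ℕ) (x : Fin n → ι → ℤ), 0 < n ∧
      (∀ k i, i ≠ 1 → ∑ η, (x k η : ℂ) * d η i = 0) ∧
      (∑ k, ∑ η, x k η * x k η) ≤ 2 * (Fintype.card Y : ℤ) ∧
      ∀ z : ι → ℂ, (∃ k₀, ∀ k, k ≠ k₀ → ∑ η, (x k η : ℂ) * z η = 0) →
        z ∈ Submodule.span ℂ (Set.range fun i : {i : Y // i ≠ 1} => fun η => d η i.1) := by
  classical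
  set N : ℂ := (Fintype.card Y : ℂ) with hN
  have hN0 : N ≠ 0 := Nat.cast_ne_zero.2 Fintype.card_ne_zero
  set e := W.card with he
  let A : (Y →* ℂˣ) → ι → ℤ := fun l η => m η l - m η 1
  let c : (Y →* ℂˣ) → (Y →* ℂˣ) → ℕ := fun l l' =>
    (W.filter fun w : MulAut Y => l'.comp w.toMonoidHom = l).card
  -- Fourier inversion
  have hinv : ∀ η l, ∑ y, d η y * conj (l y : ℂ) = N * (m η l : ℂ) := by
    intro η l
    simp only [hd, sum_mul, conj_unit_apply]
    rw [sum_comm, sum_eq_single l]
    · simp [hN, mul_comm]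
    · intro l' _ hne
      rw [sum_congr rfl (g := fun y => (m η l' : ℂ) * ((l' * l⁻¹) y : ℂ))
        (fun y _ => by simp [mul_assoc]), ← mul_sum, sum_hom_units_apply,
        if_neg (fun h => hne (mul_inv_eq_one.1 h)), mul_zero]
    · exact fun h => absurd (mem_univ l) h
  have hA : ∀ η l, N * (A l η : ℂ) = ∑ y ∈ univ.erase 1, d η y * (conj (l y : ℂ) - 1) := by
    intro η l
    rw [sum_erase _ (by simp)]
    simp only [mul_sub, mul_one, sum_sub_distrib, hinv]
    have h1 := hinv η 1
    simp only [MonoidHom.one_apply, Units.val_one, map_one, mul_one] at h1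
    rw [h1]
    simp [A, mul_sub]
  have hgram : ∀ l l', l ≠ 1 → l' ≠ 1 → ∑ η, A l η * A l' η = (c l l' : ℤ) + (e : ℤ) := by
    intro l l' hl hl'
    refine Int.cast_injective (α := ℂ) (mul_left_cancel₀ (mul_ne_zero hN0 hN0) ?_)
    push_cast
    rw [mul_sum, sum_congr rfl (g := fun η => (N * (A l η : ℂ)) * conj (N * (A l' η : ℂ)))
      (fun η _ => by rw [map_mul, map_intCast, hN, map_natCast]; ring)]
    simp only [hA, map_sum, map_mul, map_sub, map_one, Complex.conj_conj, sum_mul_sum]
    rw [sum_comm, sum_congr rfl fun i _ => sum_comm,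
      sum_congr rfl (g := fun i => N * ∑ w ∈ W, (conj (l i : ℂ) - 1) * ((l' (w i) : ℂ) - 1))
        fun i hi => ?_]
    · rw [← mul_sum, mul_assoc, sum_comm]
      congr 1
      have hw : ∀ w ∈ W, ∑ i ∈ univ.erase 1, (conj (l i : ℂ) - 1) * ((l' (w i) : ℂ) - 1) =
          N * ((if l'.comp (w : MulAut Y).toMonoidHom = l then (1 : ℂ) else 0) + 1) := by
        intro w _
        rw [sum_erase _ (by simp)]
        have hl'w : l'.comp (w : MulAut Y).toMonoidHom ≠ 1 := fun h => hl' (by
          ext y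
          have := congrArg (fun g : Y →* ℂˣ => g (w.symm y)) h
          simpa using this)
        rw [sum_congr rfl (g := fun i => ((l⁻¹ * l'.comp w.toMonoidHom) i : ℂ) - (l⁻¹ i : ℂ) -
          (l'.comp w.toMonoidHom i : ℂ) + 1) (fun i _ => by
            rw [conj_unit_apply]; simp; ring)]
        simp only [sum_add_distrib, sum_sub_distrib, sum_hom_units_apply, hl, hl'w,
          if_false, inv_mul_eq_one, sum_const, card_univ, nsmul_eq_mul, mul_one]
        have hli : ¬ l⁻¹ = 1 := fun h => hl (by rw [← inv_inv l, h]; exact MonoidHom.ext fun y => by simp)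
        simp only [hli, if_false]
        by_cases hlw : l'.comp w.toMonoidHom = l
        · rw [if_pos (inv_mul_eq_one.2 hlw.symm), if_pos hlw]; simp [hN, mul_add]
        · rw [if_neg (fun h => hlw (inv_mul_eq_one.1 h).symm), if_neg hlw]; simp [hN, mul_add]
      rw [sum_congr rfl hw, ← mul_sum, sum_add_distrib, sum_boole, sum_const, nsmul_eq_mul, mul_one]
    · have hi' := (mem_erase.1 hi).1
      rw [sum_congr rfl (g := fun j => (∑ η, d η i * conj (d η j)) *
        ((conj (l i : ℂ) - 1) * ((l' j : ℂ) - 1))) (fun j _ => by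
          rw [sum_mul]; exact sum_congr rfl fun η _ => by ring),
        sum_congr rfl fun j hj => by rw [hcor i j hi' (mem_erase.1 hj).1], mul_sum]
      simp only [card_filter, Nat.cast_sum, mul_sum, sum_mul]
      rw [sum_comm]
      refine sum_congr rfl fun w _ => ?_
      rw [sum_eq_single (w i)]
      · simp [mul_assoc, hN]
      · intro j _ hj; simp [Ne.symm hj]
      · intro h
        exact absurd (mem_erase.2 ⟨by simpa using hi', mem_univ _⟩) h
  have hc_le : ∀ l l', l' ≠ 1 → c l l' ≤ 1 := fun l l' hl' => card_le_one.2 fun w hw w' hw' => by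
    by_contra hne
    exact hl' (dual_free (hfree w (mem_filter.1 hw).1 w' (mem_filter.1 hw').1 hne)
      ((mem_filter.1 hw).2.trans (mem_filter.1 hw').2.symm))
  have hc_self : ∀ l, l ≠ 1 → c l l = 1 := fun l hl => le_antisymm (hc_le l l hl)
    (card_pos.2 ⟨1, mem_filter.2 ⟨hone, MonoidHom.ext fun _ => rfl⟩⟩)
  let L : Finset (Y →* ℂˣ) := univ.erase 1
  have hiff : ∀ l l', l ≠ 1 → l' ≠ 1 → (A l = A l' ↔ c l l' = 1) := by
    intro l l' hl hl'
    constructor
    · intro h
      have h1 := hgram l l' hl hl'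
      rw [← h, hgram l l hl hl, hc_self l hl] at h1
      omega
    · intro h
      have h1 : ∑ η, (A l η - A l' η) * (A l η - A l' η) = 0 := by
        simp only [sub_mul, mul_sub, sum_sub_distrib, hgram l l hl hl, hgram l' l' hl' hl',
          hgram l l' hl hl', hc_self l hl, hc_self l' hl', h]
        rw [show ∑ η, A l' η * A l η = ∑ η, A l η * A l' η from
          sum_congr rfl fun η _ => mul_comm _ _, hgram l l' hl hl', h]
        ring
      funext η
      exact sub_eq_zero.1 (mul_self_eq_zero.1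
        ((sum_eq_zero_iff_of_nonneg fun η _ => mul_self_nonneg _).1 h1 η (mem_univ η)))
  set Jset := L.image A with hJ
  let J := {f : ι → ℤ // f ∈ Jset}
  have hJrep : ∀ f : J, ∃ l, l ≠ 1 ∧ A l = f.1 := fun f => by
    obtain ⟨l, hl, hlf⟩ := mem_image.1 f.2
    exact ⟨l, (mem_erase.1 hl).1, hlf⟩
  have hJgram : ∀ f g : J, ∑ η, f.1 η * g.1 η = (if f = g then (1 : ℤ) else 0) + (e : ℤ) := by
    intro f g
    obtain ⟨l, hl, hlf⟩ := hJrep f
    obtain ⟨l', hl', hlg⟩ := hJrep g
    rw [← hlf, ← hlg, hgram l l' hl hl']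
    by_cases hfg : f = g
    · rw [if_pos hfg, (hiff l l' hl hl').1 (by rw [hlf, hlg, hfg])]; rfl
    · have h1 := hc_le l l' hl'
      have h2 : c l l' ≠ 1 := fun h => hfg (Subtype.ext
        (by rw [← hlf, ← hlg]; exact (hiff l l' hl hl').2 h))
      rw [if_neg hfg, show c l l' = 0 by omega]; rfl
  have hcount : Nat.card J * e + 1 = Fintype.card Y := by
    have h1 : L.card = Jset.card * e := by
      rw [card_eq_sum_card_fiberwise (f := A) (t := Jset) fun l hl => mem_image_of_mem _ hl]
      refine sum_const_nat fun f hf => ?_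
      obtain ⟨l', hl', rfl⟩ := mem_image.1 hf
      have hl'1 := (mem_erase.1 hl').1
      rw [he, ← card_image_of_injOn (s := W) (f := fun w : MulAut Y => l'.comp w.toMonoidHom)
        (fun w hw w' hw' h => by
          by_contra hne
          exact hl'1 (dual_free (hfree w hw w' hw' hne) h))]
      congr 1
      ext l
      simp only [mem_filter, mem_image, L, mem_erase, mem_univ, and_true]
      constructor
      · rintro ⟨hl1, hl⟩
        obtain ⟨w, hw⟩ := card_pos.1 (by rw [(hiff l l' hl1 hl'1).1 hl]; exact one_pos :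
          0 < c l l')
        exact ⟨w, (mem_filter.1 hw).1, (mem_filter.1 hw).2⟩
      · rintro ⟨w, hw, rfl⟩
        have hl1 : l'.comp (w : MulAut Y).toMonoidHom ≠ 1 := fun h => hl'1 (by
          ext y
          have := congrArg (fun g : Y →* ℂˣ => g (w.symm y)) h
          simpa using this)
        refine ⟨hl1, (hiff _ l' hl1 hl'1).2 (le_antisymm (hc_le _ l' hl'1) ?_)⟩
        exact card_pos.2 ⟨w, mem_filter.2 ⟨hw, rfl⟩⟩
    have hcardL : L.card + 1 = Fintype.card Y := by
      rw [card_erase_add_one (mem_univ _), card_univ, ← Nat.card_eq_fintype_card,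
        CommGroup.card_monoidHom_of_hasEnoughRootsOfUnity Y ℂ, Nat.card_eq_fintype_card]
    rw [show Nat.card J = Jset.card by rw [Nat.card_eq_fintype_card]; exact Fintype.card_coe _]
    omega
  haveI : Nonempty J := by
    obtain ⟨y, hy⟩ := exists_ne (1 : Y)
    obtain ⟨l, hl⟩ := CommGroup.exists_apply_ne_one_of_hasEnoughRootsOfUnity Y ℂ hy
    exact ⟨⟨A l, mem_image_of_mem _ (mem_erase.2 ⟨fun h => hl (by simp [h]), mem_univ _⟩)⟩⟩
  have hnon : ∀ η, ∃ f : J, f.1 η ≠ 0 := by
    intro η
    by_contra hno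
    push Not at hno
    obtain ⟨i, hi, hdi⟩ := hnz η
    refine hdi ?_
    have hm : ∀ l, m η l = m η 1 := fun l => by
      by_cases hl : l = 1
      · rw [hl]
      · exact sub_eq_zero.1 (hno ⟨A l, mem_image_of_mem _ (mem_erase.2 ⟨hl, mem_univ _⟩)⟩)
    simp only [hd, hm, ← mul_sum]
    rw [sum_apply_dual, if_neg hi, mul_zero]
  obtain ⟨n, x, hn, hxorth, hxnorm, hxdet⟩ :=
    exists_short_orth (A := fun f : J => f.1) hJgram hnon
  refine ⟨n, x, hn, fun k i hi => ?_, ?_, fun z hz => ?_⟩
  · have hA0 : ∀ l, ∑ η, (x k η : ℂ) * (A l η : ℂ) = 0 := by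
      intro l
      by_cases hl : l = 1
      · simp [A, hl]
      · exact_mod_cast hxorth k ⟨A l, mem_image_of_mem _ (mem_erase.2 ⟨hl, mem_univ _⟩)⟩
    have hm : ∀ l : Y →* ℂˣ, ∑ η, (x k η : ℂ) * (m η l : ℂ) = ∑ η, (x k η : ℂ) * (m η 1 : ℂ) := by
      intro l
      have h := hA0 l
      simp only [A, Int.cast_sub, mul_sub, sum_sub_distrib, sub_eq_zero] at h
      exact h
    simp only [hd, mul_sum, ← mul_assoc]
    rw [sum_comm]
    simp only [← sum_mul, hm, ← mul_sum]
    rw [sum_apply_dual, if_neg hi, mul_zero]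
  · rw [← hcount]; push_cast; exact hxnorm
  · have hsub : ∀ f : J, (fun η => (f.1 η : ℂ)) ∈
        Submodule.span ℂ (Set.range fun i : {i : Y // i ≠ 1} => fun η => d η i.1) := by
      intro f
      obtain ⟨l, -, hlf⟩ := hJrep f
      have heq : (fun η => (f.1 η : ℂ)) =
          ∑ i : {i : Y // i ≠ 1}, (N⁻¹ * (conj (l i.1 : ℂ) - 1)) • fun η => d η i.1 := by
        funext η
        rw [Finset.sum_apply, ← hlf]
        simp only [Pi.smul_apply, smul_eq_mul]
        rw [← sum_subtype (univ.erase (1 : Y)) (fun i => by simp)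
          fun i => N⁻¹ * (conj (l i : ℂ) - 1) * d η i]
        rw [sum_congr rfl (g := fun i => N⁻¹ * (d η i * (conj (l i : ℂ) - 1))) fun i _ => by ring,
          ← mul_sum, ← hA, inv_mul_cancel_left₀ hN0]
      rw [heq]
      exact Submodule.sum_mem _ fun i _ =>
        Submodule.smul_mem _ _ (Submodule.subset_span ⟨i, rfl⟩)
    have h := hxdet z hz
    refine Submodule.span_le.2 ?_ h
    rintro _ ⟨f, rfl⟩
    exact hsub f

end CfsgLib.BrauerPairs
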