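import Cfsg.Agent.Lib.BrauerPairs.QuotCorr
import Cfsg.Agent.Lib.BrauerPairs.StarFourier
import Cfsg.Agent.Lib.BrauerPairs.ElemTwoCore

/-!
# Short functionals detecting the regular parts, over a central subgroup with cyclic quotient
-/

set_option autoImplicit false
set_option linter.style.haveILetI false
set_option linter.unusedSectionVars false

namespace CfsgLib.BrauerPairs

open Cfsg CfsgLib.BrauerCharacters Finset
open CfsgLib.BlockStar (val blocksAt ppart)
open CfsgLib.BlockSections (belowBlock)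
open scoped ComplexConjugate

variable {G : Type*} [Group G] [Fintype G] {p : ℕ} [hp : Fact p.Prime] {M : Ideal AlgInt}
  [hMp : M.IsPrime] [CharP (Blocks.Res M) p] [IsAlgClosed (Blocks.Res M)]
  {B : Set (IrrCharacter G)} {D : Subgroup G}
  {e : MonoidAlgebra (Blocks.Res M) G} {Z : Subgroup G} {v : G}

open scoped Classical in
/-- The regular parts over a central `p`-subgroup. -/
theorem sum_central_regular [Fintype Z] (hZ : ∀ u ∈ Z, ∀ g : G, Commute u g)
    (hZp : ∀ u ∈ Z, ∃ k : ℕ, orderOf u = p ^ k)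
    (R f : G → ℂ) (hf : ∀ u ∈ Z, ∀ g, f (u * g) = f g)
    (hR : ∀ g, R g = if p ∣ orderOf g then 0 else f g)
    (hz : ∀ g x : G, IsPPart p g x → x ∉ Z → f g = 0) (g : G) :
    f g = ∑ u : Z, R ((u : G) * g) := by
  obtain ⟨x, hx⟩ := Blocks.exists_isPPart p g
  obtain ⟨y, hxy, hcom, ⟨a, ha⟩, hy⟩ := hx
  have hpp : ∀ u : Z, IsPPart p ((u : G) * g) ((u : G) * x) := by
    intro u
    rw [← hxy, ← mul_assoc]
    refine Blocks.isPPart_mul ((hZ u u.2 y).mul_left hcom) ?_ hy
    obtain ⟨k, hk⟩ := hZp u u.2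
    have h2 : orderOf ((u : G) * x) ∣ p ^ (k + a) := by
      rw [pow_add, ← hk, ← ha]
      exact (hZ u u.2 x).orderOf_mul_dvd_mul_orderOf
    obtain ⟨j, -, hj⟩ := (Nat.dvd_prime_pow hp.out).1 h2
    exact ⟨j, hj⟩
  have hreg : ∀ u : Z, R ((u : G) * g) = if (u : G) * x = 1 then f g else 0 := by
    intro u
    rw [hR, hf u u.2]
    by_cases h : p ∣ orderOf ((u : G) * g)
    · rw [if_pos h, if_neg fun h1 => (Blocks.isPPart_eq_one_iff (hpp u)).1 h1 h]
    · rw [if_neg h, if_pos ((Blocks.isPPart_eq_one_iff (hpp u)).2 h)]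
  rw [sum_congr rfl fun u _ => hreg u]
  by_cases hxZ : x ∈ Z
  · rw [sum_eq_single (⟨x⁻¹, Z.inv_mem hxZ⟩ : Z)]
    · rw [if_pos (inv_mul_cancel x)]
    · exact fun u _ hu => if_neg fun h => hu (Subtype.ext (eq_inv_of_mul_eq_one_left h))
    · exact fun h => absurd (mem_univ _) h
  · rw [sum_eq_zero fun u _ => ?_, hz g x ⟨y, hxy, hcom, ⟨a, ha⟩, hy⟩ hxZ]
    exact if_neg fun h => hxZ (by rw [eq_inv_of_mul_eq_one_right h]; exact Z.inv_mem u.2)

set_option maxHeartbeats 1600000 in
/-- Short integral functionals detecting every regular combination. -/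
theorem QuotSetting.exists_functionals (S : QuotSetting p M B D e Z v) :
    ∃ (n : ℕ) (ℓ : Fin n → IrrCharacter G → ℤ), 0 < n ∧
      (∑ m, ∑ ξ ∈ blockFinset B, ℓ m ξ ^ 2) ≤ 2 * (Nat.card D : ℤ) ∧
      (∀ m, ∃ w : G → ℂ, ∀ ξ : IrrCharacter G,
        (ℓ m ξ : ℂ) = ∑ s : G, if p ∣ orderOf s then 0 else (ξ : G → ℂ) s * w s) ∧
      ∀ cf : IrrCharacter G → ℂ,
        (∃ m₀, ∀ m, m ≠ m₀ → ∑ ξ ∈ blockFinset B, cf ξ * (ℓ m ξ : ℂ) = 0) →
        ∀ s : G, ¬ p ∣ orderOf s → ∑ ξ ∈ blockFinset B, cf ξ * (ξ : G → ℂ) s = 0 := by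
  classical
  have hM := S.modular
  haveI : M.IsMaximal := hM.2.1
  haveI := Fintype.ofFinite (IrrCharacter G)
  haveI := Fintype.ofFinite Z
  haveI := Fintype.ofFinite (D →* ℂˣ)
  obtain ⟨mm, τ, Q⟩ := S.exists_quotData
  letI : CommGroup D := { (inferInstance : Group D) with
    mul_comm := fun a b => Subtype.ext (S.comm a a.2 b b.2) }
  let N : Subgroup D := Z.subgroupOf D
  haveI : N.Normal := Subgroup.normal_of_isMulCommutative N
  let Y := D ⧸ N
  haveI : Fintype Y := Fintype.ofFinite _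
  haveI := Fintype.ofFinite (Y →* ℂˣ)
  have hmk : ∀ a b : D, ((a : Y) = (b : Y)) ↔ (a : G)⁻¹ * (b : G) ∈ Z := fun a b => by
    rw [QuotientGroup.eq]; exact Subgroup.mem_subgroupOf
  haveI : Nontrivial Y := ⟨⟨((⟨v, S.vmem⟩ : D) : Y), ((1 : D) : Y), fun h => S.vnot (by
    have := (hmk _ _).1 h
    simpa using this)⟩⟩
  have hout : ∀ i : Y, i ≠ 1 → ((i.out : D) : G) ∉ Z := fun i hi h => hi (by
    rw [← QuotientGroup.out_eq' i, QuotientGroup.eq_one_iff]
    exact Subgroup.mem_subgroupOf.2 h)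
  have hcard : (Nat.card D : ℂ) = (Fintype.card Y : ℂ) * (Fintype.card Z : ℂ) := by
    rw [Subgroup.card_eq_card_quotient_mul_card_subgroup N,
      Nat.card_congr (Subgroup.subgroupOfEquivOfLe S.zle).toEquiv, Nat.card_eq_fintype_card,
      Nat.card_eq_fintype_card]
    push_cast
    rfl
  have hZ0 : (Fintype.card Z : ℂ) ≠ 0 := Nat.cast_ne_zero.2 Fintype.card_ne_zero
  -- the characters trivial on the central subgroup
  set B0 := (blockFinset B).filter fun η : IrrCharacter G =>
    ∀ u : Z, centralVal (η : G → ℂ) u = 1 with hB0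
  have hB0mem : ∀ η ∈ B0, η ∈ B ∧ ∀ u ∈ Z, centralVal (η : G → ℂ) u = 1 := fun η h =>
    ⟨mem_blockFinset.1 (mem_filter.1 h).1, fun u hu => (mem_filter.1 h).2 ⟨u, hu⟩⟩
  let ι := {η : IrrCharacter G // η ∈ B0}
  have havg : ∀ f : IrrCharacter G → ℂ, (Fintype.card Z : ℂ) * ∑ η ∈ B0, f η =
      ∑ u : Z, ∑ η ∈ blockFinset B, centralVal (η : G → ℂ) (u : G) * f η := by
    intro f
    rw [sum_comm, hB0, sum_filter, mul_sum]
    refine sum_congr rfl fun η _ => ?_
    rw [← sum_mul]
    split_ifs with h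
    · rw [sum_congr rfl fun u _ => h u, sum_const, card_univ, nsmul_eq_mul, mul_one]
    · let cv : Z →* ℂ :=
        { toFun := fun u => centralVal (η : G → ℂ) (u : G)
          map_one' := div_self (CharTheory.apply_one_ne_zero_of_isIrr η.2)
          map_mul' := fun a b => centralVal_mul_central η (S.zcen a a.2) b }
      have hne : cv ≠ 1 := fun hcv => h fun u => DFunLike.congr_fun hcv u
      have h0 : ∑ u : Z, centralVal (η : G → ℂ) (u : G) = 0 := sum_hom_units_eq_zero cv hne
      rw [h0, zero_mul, mul_zero]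
  have hlift : ∀ (η : ι) (z : D), qdec mm η.1 (z : G) =
      ∑ l : Y →* ℂˣ, (mm η.1 (l.comp (QuotientGroup.mk' N)) : ℂ) * (l (z : Y) : ℂ) := by
    intro η z
    rw [qdec_of_mem η.1 z.2]
    rw [← sum_subset (subset_univ (univ.image fun l : Y →* ℂˣ => l.comp (QuotientGroup.mk' N)))
      fun lam _ hlam => ?_, sum_image fun a _ b _ h => ?_]
    · rfl
    · exact MonoidHom.ext fun q => by
        obtain ⟨w, rfl⟩ := QuotientGroup.mk_surjective q
        exact DFunLike.congr_fun h w
    · by_cases h : mm η.1 lam = 0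
      · simp [h]
      · refine absurd (mem_image.2 ⟨QuotientGroup.lift N lam fun u hu => ?_, mem_univ _,
          MonoidHom.ext fun w => rfl⟩) hlam
        refine MonoidHom.mem_ker.2 (Units.ext ?_)
        rw [Q.central η.1 lam h (u : G) u.2 (Subgroup.mem_subgroupOf.1 hu)]
        exact (hB0mem η.1 η.2).2 _ (Subgroup.mem_subgroupOf.1 hu)
  let md : ι → (Y →* ℂˣ) → ℤ := fun η l => mm η.1 (l.comp (QuotientGroup.mk' N))
  let d : ι → Y → ℂ := fun η i => qdec mm η.1 ((i.out : D) : G)
  have hd : ∀ η i, d η i = ∑ l : Y →* ℂˣ, (md η l : ℂ) * (l i : ℂ) := fun η i => by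
    show qdec mm η.1 _ = _
    rw [hlift η i.out, QuotientGroup.out_eq']
  have hdq : ∀ (η : ι) (z : D), qdec mm η.1 (z : G) = d η (z : Y) := fun η z => by
    rw [hd, hlift]
  -- the automorphisms induced by the stabiliser
  let T : Subgroup G := pairStab (⊤ : Subgroup G) D e
  let σ : T → MulAut D := fun t =>
    { toFun := fun x => ⟨t * x * (t : G)⁻¹, S.stab_normalizer t.2 x.2⟩
      invFun := fun x => ⟨(t : G)⁻¹ * x * t, by
        simpa using S.stab_normalizer (inv_mem t.2) x.2⟩
      left_inv := fun x => Subtype.ext (by simp [mul_assoc])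
      right_inv := fun x => Subtype.ext (by simp [mul_assoc])
      map_mul' := fun x y => Subtype.ext (by simp [mul_assoc]) }
  have hσmap : ∀ t, N.map (σ t).toMonoidHom = N := fun t => Subgroup.eq_of_le_of_card_ge
    (fun y ⟨x, hx, hxy⟩ => hxy ▸ (by
      rw [Subgroup.mem_subgroupOf]
      show (t : G) * (x : G) * (t : G)⁻¹ ∈ Z
      rw [← (S.zcen _ (Subgroup.mem_subgroupOf.1 hx) (t : G)).eq, mul_inv_cancel_right]
      exact Subgroup.mem_subgroupOf.1 hx))
    (by rw [Subgroup.card_map_of_injective (σ t).injective])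
  let ω : T → MulAut Y := fun t => QuotientGroup.congr N N (σ t) (hσmap t)
  have hω : ∀ (t : T) (x : D), ω t (x : Y) = ((σ t x : D) : Y) := fun t x => rfl
  have hagree : ∀ (t t' : T) (i : Y), i ≠ 1 → ω t i = ω t' i →
      (∀ x : D, σ t x = σ t' x) ∧ ω t = ω t' := by
    intro t t' i hi h
    obtain ⟨z, rfl⟩ := QuotientGroup.mk_surjective i
    rw [hω, hω, hmk] at h
    change ((t : G) * z * (t : G)⁻¹)⁻¹ * ((t' : G) * z * (t' : G)⁻¹) ∈ Z at h
    have hzn : (z : G) ∉ Z := fun hz => hi ((QuotientGroup.eq_one_iff z).2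
      (Subgroup.mem_subgroupOf.2 hz))
    have hs : (t : G)⁻¹ * t' ∈ Subgroup.centralizer (D : Set G) := by
      refine S.mem_centralizer_of_fix (mul_mem (inv_mem t.2) t'.2) z.2 hzn ?_
      have h2 : (z : G)⁻¹ * ((t : G)⁻¹ * t' * z * ((t : G)⁻¹ * t')⁻¹) =
          (t : G)⁻¹ * (((t : G) * z * (t : G)⁻¹)⁻¹ * ((t' : G) * z * (t' : G)⁻¹)) * t := by group
      rw [h2, ← (S.zcen _ h (t : G)⁻¹).eq, inv_mul_cancel_right]
      exact h
    have hx : ∀ x : D, σ t x = σ t' x := fun x => Subtype.ext (by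
      show (t : G) * x * (t : G)⁻¹ = (t' : G) * x * (t' : G)⁻¹
      calc (t : G) * x * (t : G)⁻¹
          = t * ((x : G) * ((t : G)⁻¹ * t') * ((t : G)⁻¹ * t')⁻¹) * (t : G)⁻¹ := by group
        _ = t * ((t : G)⁻¹ * t' * x * ((t : G)⁻¹ * t')⁻¹) * (t : G)⁻¹ := by
            rw [Subgroup.mem_centralizer_iff.1 hs (x : G) x.2]
        _ = _ := by group)
    exact ⟨hx, MulEquiv.ext fun q => by
      obtain ⟨x, rfl⟩ := QuotientGroup.mk_surjective q
      rw [hω, hω, hx]⟩
  let W : Finset (MulAut Y) := univ.image ω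
  have hone : (1 : MulAut Y) ∈ W := by
    refine mem_image.2 ⟨1, mem_univ _, MulEquiv.ext fun q => ?_⟩
    obtain ⟨x, rfl⟩ := QuotientGroup.mk_surjective q
    rw [hω, MulAut.one_apply]
    congr 1
    exact Subtype.ext (by show (1 : G) * x * (1 : G)⁻¹ = x; group)
  have hfree : ∀ w ∈ W, ∀ w' ∈ W, w ≠ w' → ∀ y, w y = w' y → y = 1 := by
    intro w hw w' hw' hne y hy
    obtain ⟨t, -, rfl⟩ := mem_image.1 hw
    obtain ⟨t', -, rfl⟩ := mem_image.1 hw'
    by_contra hy1
    exact hne (hagree t t' y hy1 hy).2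
  have hcor : ∀ i j : Y, i ≠ 1 → j ≠ 1 → ∑ η : ι, d η i * conj (d η j) =
      (Fintype.card Y : ℂ) * (W.filter fun w => w i = j).card := by
    intro i j hi hj
    refine mul_left_cancel₀ hZ0 ?_
    rw [sum_coe_sort B0 fun η : IrrCharacter G =>
      qdec mm η ((i.out : D) : G) * conj (qdec mm η ((j.out : D) : G)), havg]
    set z : D := i.out with hz
    set z' : D := j.out with hz'
    have hu : ∀ u : Z, ∑ η ∈ blockFinset B, centralVal (η : G → ℂ) (u : G) *
        (qdec mm η (z : G) * conj (qdec mm η (z' : G))) =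
        if ∃ t ∈ pairStab (⊤ : Subgroup G) D e, t * ((z : G) * u) * t⁻¹ = (z' : G) then
          (Nat.card D : ℂ) else 0 := by
      intro u
      have hzu : (z : G) * u ∉ Z := fun h => hout i hi (by
        simpa using Z.mul_mem h (Z.inv_mem u.2))
      rw [← Q.sum_qdec_mul_conj (D.mul_mem z.2 (S.zle u.2)) hzu z'.2 (hout j hj),
        ← sum_subset (subset_univ (blockFinset B)) fun η _ hη => by
          rw [Q.qdec_eq_zero (by simpa using hη) (D.mul_mem z.2 (S.zle u.2)) hzu, zero_mul]]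
      exact sum_congr rfl fun η _ => by rw [Q.qdec_mul_central η z.2 u.2]; ring
    rw [sum_congr rfl fun u _ => hu u, ← sum_filter, sum_const, nsmul_eq_mul, hcard]
    suffices h : (univ.filter fun u : Z => ∃ t ∈ pairStab (⊤ : Subgroup G) D e,
        t * ((z : G) * u) * t⁻¹ = (z' : G)).card = (W.filter fun w => w i = j).card by
      rw [h]; ring
    have hmv : ∀ (t : T) (u : Z), ((σ t z : D) : G) * u = t * ((z : G) * u) * (t : G)⁻¹ :=
      fun t u => by
        show (t : G) * z * (t : G)⁻¹ * u = _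
        rw [mul_assoc _ (t : G)⁻¹, ← (S.zcen _ u.2 (t : G)⁻¹).eq]
        group
    have hwi : ∀ (t : T) (u : Z), t * ((z : G) * u) * (t : G)⁻¹ = (z' : G) → ω t i = j := by
      intro t u h
      rw [← QuotientGroup.out_eq' i, ← QuotientGroup.out_eq' j, ← hz, ← hz', hω, hmk, ← h, ← hmv]
      simp
    refine card_bij (fun u hu => ω ⟨(mem_filter.1 hu).2.choose, (mem_filter.1 hu).2.choose_spec.1⟩)
      (fun u hu => mem_filter.2 ⟨mem_image_of_mem _ (mem_univ _),
        hwi _ u (mem_filter.1 hu).2.choose_spec.2⟩) (fun u hu u' hu' h => ?_) (fun w hw => ?_)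
    · have h1 := (hagree _ _ i hi (DFunLike.congr_fun h i)).1 z
      have e1 := hmv ⟨_, (mem_filter.1 hu).2.choose_spec.1⟩ u
      have e2 := hmv ⟨_, (mem_filter.1 hu').2.choose_spec.1⟩ u'
      have e1' := e1.trans (mem_filter.1 hu).2.choose_spec.2
      have e2' := e2.trans (mem_filter.1 hu').2.choose_spec.2
      exact Subtype.ext (mul_left_cancel ((e1'.trans e2'.symm).trans
        (congrArg (fun a : D => (a : G) * u') h1).symm))
    · obtain ⟨hwW, hwij⟩ := mem_filter.1 hw
      obtain ⟨t, -, rfl⟩ := mem_image.1 hwW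
      have hmem : ((σ t z : D) : G)⁻¹ * (z' : G) ∈ Z := by
        rw [← hmk, ← hω, hz, hz', QuotientGroup.out_eq', QuotientGroup.out_eq']
        exact hwij
      let u : Z := ⟨_, hmem⟩
      have htu : (t : G) * ((z : G) * u) * (t : G)⁻¹ = (z' : G) := by
        rw [← hmv]; exact mul_inv_cancel_left _ _
      have hu' : u ∈ univ.filter fun u : Z => ∃ t ∈ pairStab (⊤ : Subgroup G) D e,
          t * ((z : G) * u) * t⁻¹ = (z' : G) := mem_filter.2 ⟨mem_univ _, t, t.2, htu⟩
      refine ⟨u, hu', (hagree _ t i hi ?_).2⟩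
      rw [hwi _ u (mem_filter.1 hu').2.choose_spec.2, hwi t u htu]
  have hnz : ∀ η : ι, ∃ i, i ≠ 1 ∧ d η i ≠ 0 := fun η => by
    refine ⟨((⟨v, S.vmem⟩ : D) : Y), fun h => S.vnot ?_, ?_⟩
    · exact Subgroup.mem_subgroupOf.1 ((QuotientGroup.eq_one_iff _).1 h)
    · rw [← hdq]
      exact Q.qdec_ne_zero (hB0mem η.1 η.2).1 S.vmem S.vnot
  obtain ⟨n, x, hn, hxd, hxnorm, hxdet⟩ := exists_short_fourier W hone hfree md d hd hcor hnz
  -- the combinations
  let X : Fin n → G → ℂ := fun m g => ∑ η : ι, (x m η : ℂ) * (η.1 : G → ℂ) g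
  have hXu : ∀ m, ∀ u ∈ Z, ∀ g, X m (u * g) = X m g := fun m u hu g =>
    sum_congr rfl fun η _ => by
      rw [(centralVal_spec η.1 (S.zcen u hu)).2, (hB0mem η.1 η.2).2 u hu, one_mul]
  have hX0 : ∀ m g w, IsPPart p g w → w ∉ Z → X m g = 0 := by
    intro m g w hw hwn
    have hu : ppart p g = w := BlockStar.ppart_eq hw
    simp only [X]
    rw [sum_congr rfl fun η _ => by rw [BlockStar.apply_eq_sum_val (M := M) (p := p) η.1 g, hu, mul_sum],
      sum_comm]
    refine sum_eq_zero fun c hc => ?_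
    by_cases hp : PairOf p (⊤ : Subgroup G) (redElem M (blockCoeff B)) (Subgroup.zpowers w) c
    · obtain ⟨t, ht⟩ := (BlockStar.exists_conj_iff S.hb S.max).2 hp
      have hdD : t * w * t⁻¹ ∈ D := ht.le (Subgroup.mem_zpowers _)
      have hdn : t * w * t⁻¹ ∉ Z := fun h => hwn (by
        have h2 : t⁻¹ * (t * w * t⁻¹) * t = w := by group
        rw [← h2, ← (S.zcen _ h t⁻¹).eq, inv_mul_cancel_right]
        exact h)
      obtain ⟨-, hle, -⟩ := BlockSections.belowBlock_spec hM S.block S.max hdD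
      have hcb := mem_blockIdems.1 hc
      rw [← hu] at hcb
      have hvalc : ∀ η : IrrCharacter G, val η g c =
          qdec mm η (t * w * t⁻¹) * τ (t * w * t⁻¹) (t * g * t⁻¹) := by
        intro η
        rw [← Q.val_eq η hdD hdn (Blocks.IsPPart.conj hw t),
          ← (existsUnique_pairLE S.max.1.1 hle.le).unique ht hle,
          BlockStar.val_conj η t hcb.mul_self (BlockStar.commute_block hcb c).1]
      rw [sum_congr rfl (g := fun η : ι => (x m η : ℂ) * d η ((⟨_, hdD⟩ : D) : Y) *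
        τ (t * w * t⁻¹) (t * g * t⁻¹)) fun η _ => by rw [hvalc, ← mul_assoc]; congr 2; exact hdq η ⟨_, hdD⟩, ← sum_mul,
        hxd m _ fun h => hdn (Subgroup.mem_subgroupOf.1 ((QuotientGroup.eq_one_iff _).1 h)),
        zero_mul]
    · refine sum_eq_zero fun η _ => ?_
      rw [BlockStar.val_eq_zero_of_not_pairOf hM S.block (hB0mem η.1 η.2).1
        (by rw [hu]; exact mem_blockIdems.1 hc) (by rw [hu]; exact hp), mul_zero]
  -- orthonormality against the regular pairing
  have hregX : ∀ m (η' : ι), (Fintype.card Z : ℂ) * (∑ η : ι, (x m η : ℂ) *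
      regInner p (η'.1 : G → ℂ) (η.1 : G → ℂ)) = (x m η' : ℂ) := by
    intro m η'
    have hinner : classInner (η'.1 : G → ℂ) (X m) = (x m η' : ℂ) := by
      simp only [X, classInner, map_sum, map_mul, map_intCast, mul_sum]
      rw [sum_comm, sum_eq_single η']
      · have h := CharTheory.classInner_irrCharacter η'.1 η'.1
        rw [if_pos rfl, classInner, mul_sum] at h
        calc ∑ g, (Nat.card G : ℂ)⁻¹ * ((η'.1 : G → ℂ) g * ((x m η' : ℂ) * conj ((η'.1 : G → ℂ) g)))
            = (x m η' : ℂ) * ∑ g, (Nat.card G : ℂ)⁻¹ * ((η'.1 : G → ℂ) g * conj ((η'.1 : G → ℂ) g)) := by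
              rw [mul_sum]; exact sum_congr rfl fun g _ => by ring
          _ = (x m η' : ℂ) := by rw [h, mul_one]
      · intro η _ hη
        have h := CharTheory.classInner_irrCharacter η'.1 η.1
        rw [if_neg fun h => hη (Subtype.ext h.symm), classInner, mul_sum] at h
        calc ∑ g, (Nat.card G : ℂ)⁻¹ * ((η'.1 : G → ℂ) g * ((x m η : ℂ) * conj ((η.1 : G → ℂ) g)))
            = (x m η : ℂ) * ∑ g, (Nat.card G : ℂ)⁻¹ * ((η'.1 : G → ℂ) g * conj ((η.1 : G → ℂ) g)) := by
              rw [mul_sum]; exact sum_congr rfl fun g _ => by ring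
          _ = 0 := by rw [h, mul_zero]
      · exact fun h => absurd (mem_univ _) h
    let f : G → ℂ := fun g => (η'.1 : G → ℂ) g * conj (X m g)
    let R : G → ℂ := fun g => if p ∣ orderOf g then 0 else f g
    have hshift : ∀ g, f g = ∑ u : Z, R ((u : G) * g) :=
      sum_central_regular S.zcen (fun u hu => S.isPElem (S.zle hu)) R f
        (fun u hu g => by
          simp only [f, hXu m u hu, (centralVal_spec η'.1 (S.zcen u hu)).2,
            (hB0mem η'.1 η'.2).2 u hu, one_mul])
        (fun g => rfl) (fun g w h1 h2 => by simp only [f, hX0 m g w h1 h2, map_zero, mul_zero])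
    have hsum : ∑ g, f g = (Fintype.card Z : ℂ) * ∑ g, R g := by
      rw [sum_congr rfl fun g _ => hshift g, sum_comm,
        sum_congr rfl (g := fun _ => ∑ g, R g)
          (fun u _ => by exact Equiv.sum_comp (Equiv.mulLeft (u : G)) R),
        sum_const, card_univ, nsmul_eq_mul]
    have h3 : ∑ η : ι, (x m η : ℂ) * regInner p (η'.1 : G → ℂ) (η.1 : G → ℂ) =
        (Nat.card G : ℂ)⁻¹ * ∑ g, R g := by
      simp only [regInner, classInner, mul_sum]
      rw [sum_comm]
      refine sum_congr rfl fun g _ => ?_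
      simp only [R, f, pRegularPart, IsPRegular]
      by_cases hg : p ∣ orderOf g
      · simp [hg]
      · simp only [hg, not_false_iff, if_true, if_false, X, map_sum, map_mul, map_intCast, mul_sum]
        exact sum_congr rfl fun η _ => by ring
    rw [h3, mul_left_comm, ← hsum, ← hinner, classInner]
  -- the integral functionals
  have hF : ∀ ξ η : IrrCharacter G, ∃ z : ℤ,
      classInner (fun g => (ξ : G → ℂ) (regPart p g)) (η : G → ℂ) = (z : ℂ) := fun ξ η =>
    CharTheory.exists_classInner_eq_int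
      (isGeneralizedCharacter_regPart (CharTheory.IsIrrCharacter.isCharacter ξ.2))
      (CharTheory.IsIrrCharacter.isGeneralizedCharacter η.2)
  choose co hco using hF
  have hw := weakOrth (p := p) hM S.block
  have hexp : ∀ ξ : IrrCharacter G, ∀ ζ ∈ B, regInner p (ξ : G → ℂ) (ζ : G → ℂ) =
      ∑ η : ι, (co ξ η.1 : ℂ) * regInner p (η.1 : G → ℂ) (ζ : G → ℂ) := by
    intro ξ ζ hζ
    have hpr : pRegularPart p (ξ : G → ℂ) = fun g => ∑ η : IrrCharacter G,
        (co ξ η : ℂ) * pRegularPart p (η : G → ℂ) g := by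
      funext g
      by_cases hg : p ∣ orderOf g
      · simp [pRegularPart, IsPRegular, hg]
      · simp only [pRegularPart, IsPRegular, hg, not_false_iff, if_true]
        conv_lhs => rw [← regPart_of_not_dvd (p := p) hg]
        have h := congrFun (CharTheory.eq_sum_classInner (f := fun g => (ξ : G → ℂ) (regPart p g))
          (Brauer.isClassFunction_of_isGeneralizedCharacter
            (isGeneralizedCharacter_regPart (CharTheory.IsIrrCharacter.isCharacter ξ.2)))) g
        simpa only [Finset.sum_apply, Pi.smul_apply, smul_eq_mul, hco] using h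
    have hlin : regInner p (ξ : G → ℂ) (ζ : G → ℂ) = ∑ η : IrrCharacter G,
        (co ξ η : ℂ) * regInner p (η : G → ℂ) (ζ : G → ℂ) := by
      simp only [regInner, classInner, hpr, sum_mul, mul_sum]
      rw [sum_comm]
      exact sum_congr rfl fun η _ => sum_congr rfl fun g _ => by ring
    rw [hlin, sum_coe_sort B0 fun η : IrrCharacter G =>
      (co ξ η : ℂ) * regInner p (η : G → ℂ) (ζ : G → ℂ)]
    refine (sum_subset (subset_univ B0) fun η _ hη => ?_).symm
    by_cases hηB : η ∈ B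
    · have hzero : (co ξ η : ℂ) = 0 := by
        rw [← hco]
        by_contra h0
        refine hη (mem_filter.2 ⟨mem_blockFinset.2 hηB, fun u => ?_⟩)
        refine centralVal_eq_one_of_invariant (F := fun g => (ξ : G → ℂ) (regPart p g))
          (S.zcen u u.2) (fun g => ?_) h0
        exact congrArg (ξ : G → ℂ) (regPart_central_mul (S.zcen u u.2) (S.isPElem (S.zle u.2)))
      rw [hzero, zero_mul]
    · rw [regInner_comm, regInner_eq_zero_of_notMem hw hζ hηB, mul_zero]
  let ℓ : Fin n → IrrCharacter G → ℤ := fun m ξ => ∑ η : ι, co ξ η.1 * x m η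
  have hℓ : ∀ m ξ, (ℓ m ξ : ℂ) = (Fintype.card Z : ℂ) * ∑ ζ : ι, (x m ζ : ℂ) *
      regInner p (ξ : G → ℂ) (ζ.1 : G → ℂ) := by
    intro m ξ
    rw [sum_congr rfl fun ζ _ => by rw [hexp ξ ζ.1 (hB0mem ζ.1 ζ.2).1]]
    simp only [ℓ, mul_sum, Int.cast_sum, Int.cast_mul]
    rw [sum_comm]
    refine sum_congr rfl fun η _ => ?_
    rw [← hregX m η, mul_sum, mul_sum]
    exact sum_congr rfl fun ζ _ => by ring
  refine ⟨n, ℓ, hn, ?_, fun m => ⟨fun s => (Fintype.card Z : ℂ) * (Nat.card G : ℂ)⁻¹ *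
    ∑ ζ : ι, (x m ζ : ℂ) * conj ((ζ.1 : G → ℂ) s), fun ξ => ?_⟩, ?_⟩
  · have h1 : ∀ m, ∑ ξ ∈ blockFinset B, ℓ m ξ ^ 2 = (Fintype.card Z : ℤ) * ∑ η : ι, x m η * x m η := by
      intro m
      apply Int.cast_injective (α := ℂ)
      push_cast
      rw [sum_congr rfl (g := fun ξ : IrrCharacter G => ∑ ζ : ι, ∑ ζ' : ι,
        ((Fintype.card Z : ℂ) * (Fintype.card Z : ℂ) * (x m ζ) * (x m ζ')) *
        (regInner p (ξ : G → ℂ) (ζ'.1 : G → ℂ) * regInner p (ζ.1 : G → ℂ) (ξ : G → ℂ)))
        (fun ξ _ => by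
          rw [sq, hℓ, mul_sum, sum_mul_sum]
          exact sum_congr rfl fun ζ _ => sum_congr rfl fun ζ' _ => by
            rw [regInner_comm p ξ ζ.1]; ring),
        sum_comm, mul_sum]
      refine sum_congr rfl fun ζ _ => ?_
      rw [sum_comm]
      conv_rhs => arg 2; arg 2; rw [← hregX m ζ]
      simp only [mul_sum]
      refine sum_congr rfl fun ζ' _ => ?_
      rw [← mul_sum]
      have hid : ∑ ξ ∈ blockFinset B, regInner p (ξ : G → ℂ) (ζ'.1 : G → ℂ) *
          regInner p (ζ.1 : G → ℂ) (ξ : G → ℂ) = regInner p (ζ.1 : G → ℂ) (ζ'.1 : G → ℂ) := by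
        rw [← sum_regInner_mul p ζ.1 ζ'.1,
          ← sum_subset (subset_univ (blockFinset B)) (fun ξ _ hξ => by
            rw [regInner_eq_zero_of_notMem hw (hB0mem ζ.1 ζ.2).1 (by simpa using hξ), zero_mul])]
        exact sum_congr rfl fun ξ _ => mul_comm _ _
      rw [hid]
      ring
    rw [sum_congr rfl fun m _ => h1 m, ← mul_sum]
    have hDint : (Nat.card D : ℤ) = (Fintype.card Y : ℤ) * (Fintype.card Z : ℤ) := by
      exact_mod_cast hcard
    calc (Fintype.card Z : ℤ) * ∑ m, ∑ η : ι, x m η * x m η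
        ≤ (Fintype.card Z : ℤ) * (2 * (Fintype.card Y : ℤ)) :=
          mul_le_mul_of_nonneg_left hxnorm (Int.natCast_nonneg _)
      _ = 2 * (Nat.card D : ℤ) := by rw [hDint]; ring
  · rw [hℓ, mul_sum]
    simp only [regInner, classInner, mul_sum]
    rw [sum_comm]
    refine sum_congr rfl fun g _ => ?_
    by_cases hg : p ∣ orderOf g
    · simp [hg, pRegularPart, IsPRegular]
    · simp only [hg, pRegularPart, IsPRegular, not_false_iff, if_true, if_false]
      exact sum_congr rfl fun ζ _ => by ring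
  · rintro cf ⟨m₀, hm₀⟩ s hs
    let z : ι → ℂ := fun η => ∑ ξ ∈ blockFinset B, cf ξ * (co ξ η.1 : ℂ)
    have hz : z ∈ Submodule.span ℂ (Set.range fun i : {i : Y // i ≠ 1} => fun η => d η i.1) := by
      refine hxdet z ⟨m₀, fun m hm => ?_⟩
      rw [← hm₀ m hm]
      simp only [z, ℓ, Int.cast_sum, Int.cast_mul, mul_sum]
      rw [sum_comm]
      exact sum_congr rfl fun ξ _ => sum_congr rfl fun η _ => by ring
    have hvanish : ∀ y ∈ Submodule.span ℂ (Set.range fun i : {i : Y // i ≠ 1} => fun η => d η i.1),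
        ∑ η : ι, y η * (η.1 : G → ℂ) s = 0 := by
      intro y hy
      induction hy using Submodule.span_induction with
      | mem y hy =>
        obtain ⟨⟨i, hi⟩, rfl⟩ := hy
        refine mul_left_cancel₀ hZ0 ?_
        rw [mul_zero, sum_coe_sort B0 fun η : IrrCharacter G =>
          qdec mm η ((i.out : D) : G) * (η : G → ℂ) s, havg]
        refine sum_eq_zero fun u _ => ?_
        set z : D := i.out with hzdef
        have hzu : (z : G) * u ∉ Z := fun h => hout i hi (by
          simpa using Z.mul_mem h (Z.inv_mem u.2))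
        have hzD := D.mul_mem z.2 (S.zle u.2)
        rw [sum_congr rfl (g := fun η : IrrCharacter G =>
          qdec mm η ((z : G) * u) * (η : G → ℂ) s) fun η _ => by
            rw [Q.qdec_mul_central η z.2 u.2, mul_assoc],
          sum_subset (subset_univ (blockFinset B)) fun η _ hη => by
            rw [Q.qdec_eq_zero (by simpa using hη) hzD hzu, zero_mul]]
        have hN0 : (Nat.card (Subgroup.centralizer ({(z : G) * u} : Set G)) : ℂ) /
            (Nat.card D : ℂ) ≠ 0 := div_ne_zero (Nat.cast_ne_zero.2 Nat.card_pos.ne')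
          (Nat.cast_ne_zero.2 Nat.card_pos.ne')
        refine mul_left_cancel₀ hN0 ?_
        rw [mul_zero, mul_sum]
        rw [sum_congr rfl (g := fun η : IrrCharacter G => ∑ g ∈ secSet p ((z : G) * u),
          conj (τ ((z : G) * u) g) * ((η : G → ℂ) g * conj ((η : G → ℂ) s⁻¹))) fun η _ => by
          rw [← mul_assoc, mul_comm _ (qdec mm η _), Q.qdec_column η hzD hzu, sum_mul]
          refine sum_congr rfl fun g _ => ?_
          rw [CharTheory.IsIrrCharacter.inv η.2, Complex.conj_conj]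
          ring, sum_comm]
        refine sum_eq_zero fun g hg => ?_
        rw [← mul_sum, CharTheory.sum_mul_conj, if_neg fun hc => ?_, mul_zero]
        obtain ⟨c, hc'⟩ := isConj_iff.1 hc
        have h1 := (Blocks.isPPart_eq_one_iff (mem_secSet.1 hg)).2 (by
          rw [show orderOf g = orderOf s by
            rw [← orderOf_inv (x := s), ← hc']; exact (MulEquiv.orderOf_eq (MulAut.conj c) g).symm]
          exact hs)
        exact hzu (by rw [h1]; exact Z.one_mem)
      | zero => simp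
      | add y y' _ _ h h' => simp only [Pi.add_apply, add_mul, sum_add_distrib, h, h', add_zero]
      | smul r y _ h => simp only [Pi.smul_apply, smul_eq_mul, mul_assoc, ← mul_sum, h, mul_zero]
    have hval : ∀ ξ ∈ B, (ξ : G → ℂ) s = ∑ η : ι, (co ξ η.1 : ℂ) * (η.1 : G → ℂ) s := by
      intro ξ hξ
      have hreg : ∀ η ∈ B, (η : G → ℂ) s =
          ∑ ζ ∈ blockFinset B, regInner p (η : G → ℂ) (ζ : G → ℂ) * (ζ : G → ℂ) s := by
        intro η hη
        have h := congrFun (pRegularPart_eq_sum_block hw hη) s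
        simpa [pRegularPart, IsPRegular, hs, Finset.sum_apply] using h
      rw [hreg ξ hξ, sum_congr rfl fun (η : ι) _ => by rw [hreg η.1 (hB0mem η.1 η.2).1]]
      simp only [mul_sum]
      rw [sum_comm]
      refine sum_congr rfl fun ζ hζ => ?_
      rw [hexp ξ ζ (mem_blockFinset.1 hζ), sum_mul]
      exact sum_congr rfl fun η _ => mul_assoc _ _ _
    rw [sum_congr rfl fun ξ hξ => by rw [hval ξ (mem_blockFinset.1 hξ)], ← hvanish z hz]
    simp only [z, sum_mul, mul_sum]
    rw [sum_comm]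
    exact sum_congr rfl fun η _ => sum_congr rfl fun ξ _ => by ring

end CfsgLib.BrauerPairs
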