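import Cfsg.Agent.Lib.BrauerPairs.ValTransport
import Cfsg.Agent.Lib.BlockStar.Action
import Cfsg.Agent.Lib.CharTheory.Linear

/-!
# The characters of a nilpotent block with abelian defect group as a torsor

They are the products of one of them with the linear characters of the defect group.
-/

set_option autoImplicit false
set_option linter.style.haveILetI false
set_option linter.unusedSectionVars false

namespace CfsgLib.BrauerPairs

open Cfsg CfsgLib.Blocks MonoidAlgebra Finset
open CfsgLib.BlockStar (val Lam LamF lamAt blocksAt starF FusInv StableFun extP ppart)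
open CfsgLib.BlockSections (belowBlock)
open CfsgLib.BrauerCharacters (centralVal cenElem)
open scoped ComplexConjugate

variable {K : Type*} [Group K] [Fintype K] {M : Ideal AlgInt} [M.IsPrime] {p : ℕ} [Fact p.Prime]
  [CharP (Res M) p] [IsAlgClosed (Res M)] {c : Set (IrrCharacter K)} {P : Subgroup K}
  {e0 : MonoidAlgebra (Res M) K}

/-- The family: a character and its products with the linear characters of the defect group. -/
structure StarFamily (p : ℕ) [Fact p.Prime] (c : Set (IrrCharacter K)) (P : Subgroup K)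
    (e0 : MonoidAlgebra (Res M) K) (χ : IrrCharacter K)
    (ψ : (P →* ℂˣ) → IrrCharacter K) : Prop where
  modular : IsPModular p M
  block : IsPBlock M c
  max : IsMaxPair p (⊤ : Subgroup K) (redElem M (blockCoeff c)) P e0
  nilp : IsNilp p (⊤ : Subgroup K) (redElem M (blockCoeff c))
  comm : ∀ x ∈ P, ∀ y ∈ P, x * y = y * x
  mem : χ ∈ c
  height : blockHeight p c (χ : K → ℂ) = 0
  inj : Function.Injective ψ
  surj : ∀ ξ ∈ c, ∃ lam, ψ lam = ξ
  range_mem : ∀ lam, ψ lam ∈ c
  value : ∀ lam, ∀ g : K, ∀ c' ∈ blocksAt M (ppart p g),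
    val (ψ lam) g c' = Lam p e0 lam (ppart p g) c' * val χ g c'

theorem card_irrCharacter_comm (hab : ∀ x ∈ P, ∀ y ∈ P, x * y = y * x) :
    Nat.card (IrrCharacter P) = Nat.card P := by
  rw [CharTheory.card_irrCharacter]
  refine (Nat.card_eq_of_bijective (fun x : P => ConjClasses.mk x) ⟨fun x y h => ?_,
    ConjClasses.mk_surjective⟩).symm
  obtain ⟨w, hw⟩ := isConj_iff.1 (ConjClasses.mk_eq_mk_iff_isConj.1 h)
  rw [← hw]
  refine Subtype.ext ?_
  show (x : K) = w * x * (w : K)⁻¹
  rw [hab w w.2 x x.2, mul_inv_cancel_right]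

theorem exists_starFamily (hM : IsPModular p M) (hc : IsPBlock M c)
    (hmax : IsMaxPair p (⊤ : Subgroup K) (redElem M (blockCoeff c)) P e0)
    (hnil : IsNilp p (⊤ : Subgroup K) (redElem M (blockCoeff c)))
    (hab : ∀ x ∈ P, ∀ y ∈ P, x * y = y * x) :
    ∃ χ ψ, StarFamily (M := M) p c P e0 χ ψ := by
  classical
  haveI : ∀ y : K, Fintype (Subgroup.centralizer ({y} : Set K)) := fun y => Fintype.ofFinite _
  haveI := Fintype.ofFinite P
  obtain ⟨χ, hχ, h0⟩ :=
    BrauerCharacters.exists_height_eq_zero (p := p) (B := c) (Blocks.isPBlock_nonempty hc)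
  have hfus : ∀ lam : P →* ℂˣ, FusInv p e0 lam := by
    intro lam
    refine BlockStar.stableFun_of_nilp hM hc hmax hnil fun w hw v hv => ?_
    rw [hab w hw v hv, mul_inv_cancel_right]
  choose ψ hψc hψ1 hψv using fun lam => BlockStar.exists_star hM hc hmax (hfus lam) hχ
  let ζ : (P →* ℂˣ) → IrrCharacter P := fun lam =>
    ⟨fun v => (lam v : ℂ), CharTheory.isIrrCharacter_linear lam⟩
  have hstar : ∀ lam, starF p χ P e0 (extP P (ζ lam : P → ℂ)) = (ψ lam : K → ℂ) := by
    intro lam
    funext g
    rw [starF, BlockStar.apply_eq_sum_val (M := M) (p := p) (ψ lam) g]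
    refine Finset.sum_congr rfl fun c' hc' => ?_
    rw [hψv lam g c' hc']
    congr 1
  have hinj : Function.Injective ψ := by
    intro lam lam' h
    have h1 := BlockStar.classInner_starF_extP hM hc hmax hnil hχ h0 (ζ lam) (ζ lam')
    rw [hstar, hstar, h, CharTheory.classInner_self_of_isIrr (ψ lam').2] at h1
    by_contra hne
    rw [if_neg fun h2 : ζ lam = ζ lam' => hne (CharTheory.linear_inj (congrArg Subtype.val h2))] at h1
    exact one_ne_zero h1
  refine ⟨χ, ψ, hM, hc, hmax, hnil, hab, hχ, h0, hinj, fun ξ hξ => ?_, hψc, hψv⟩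
  obtain ⟨Φ, -⟩ := BlockStar.exists_equiv_of_nilp hM hc hmax hnil hχ h0
  letI : CommGroup P := { (inferInstance : Group P) with
    mul_comm := fun a b => Subtype.ext (hab a a.2 b b.2) }
  haveI := Fintype.ofFinite (IrrCharacter K)
  haveI := Fintype.ofFinite (P →* ℂˣ)
  have hcard : Fintype.card (P →* ℂˣ) = Fintype.card c := by
    rw [← Nat.card_eq_fintype_card, ← Nat.card_eq_fintype_card, Nat.card_congr Φ,
      card_irrCharacter_comm hab]
    exact CommGroup.card_monoidHom_of_hasEnoughRootsOfUnity P ℂ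
  have hbij : Function.Bijective (fun lam => (⟨ψ lam, hψc lam⟩ : c)) :=
    (Fintype.bijective_iff_injective_and_card _).2 ⟨fun a b h => hinj (congrArg Subtype.val h), hcard⟩
  obtain ⟨lam, hlam⟩ := hbij.2 ⟨ξ, hξ⟩
  exact ⟨lam, congrArg Subtype.val hlam⟩

namespace StarFamily

variable {χ : IrrCharacter K} {ψ : (P →* ℂˣ) → IrrCharacter K}
  (F : StarFamily (M := M) p c P e0 χ ψ)
include F

theorem fusInv (lam : P →* ℂˣ) : FusInv p e0 lam :=
  BlockStar.stableFun_of_nilp F.modular F.block F.max F.nilp fun w hw v hv => by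
    rw [F.comm w hw v hv, mul_inv_cancel_right]

/-- At an element of the defect group the parts are multiplied by the value. -/
theorem val_below (lam : P →* ℂˣ) {v : K} (hv : v ∈ P) {g : K} (hg : IsPPart p g v) :
    val (ψ lam) g (subIdem M _ (belowBlock (M := M) p P e0 v)) =
      (lam ⟨v, hv⟩ : ℂ) * val χ g (subIdem M _ (belowBlock (M := M) p P e0 v)) := by
  obtain ⟨hbl, hle, -⟩ := BlockSections.belowBlock_spec F.modular F.block F.max hv
  have hu : ppart p g = v := BlockStar.ppart_eq hg
  rw [F.value lam g _ (by rw [hu]; exact mem_blockIdems.2 (hle.isPair_left F.max.1.1).2.2),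
    hu, BlockStar.Lam_eq (F.fusInv lam) (x := 1) (by simpa using hle)]
  congr 1
  rw [show (1 : K) * v * 1⁻¹ = v by group, BlockStar.lamAt_of_mem _ hv]

/-- Outside the block the parts vanish. -/
theorem val_below_zero {ξ : IrrCharacter K} (hξ : ξ ∉ c) {v : K} (hv : v ∈ P) {g : K}
    (hg : IsPPart p g v) : val ξ g (subIdem M _ (belowBlock (M := M) p P e0 v)) = 0 := by
  obtain ⟨hbl, hle, -⟩ := BlockSections.belowBlock_spec F.modular F.block F.max hv
  have hu : ppart p g = v := BlockStar.ppart_eq hg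
  refine BlockStar.val_eq_zero_of_not_pairOf F.modular (isPBlock_blockOf ξ)
    (mem_blockOf_self ξ) (by rw [hu]; exact (hle.isPair_left F.max.1.1).2.2) fun h => hξ ?_
  rw [hu] at h
  have hb := isBlockIdem_redElem_blockCoeff (M := M) F.block
  have heq := (existsUnique_pairOf h.1).unique
    ⟨hb, (hle.pairOf_iff hb).2 F.max.1⟩
    ⟨isBlockIdem_redElem_blockCoeff (isPBlock_blockOf ξ), h⟩
  rw [redElem_blockCoeff_injective F.block (isPBlock_blockOf ξ) heq]
  exact mem_blockOf_self ξ

/-- The scaled norm of a part is one. -/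
theorem sum_secSet_val {v : K} (hv : v ∈ P) :
    ∑ g ∈ secSet p v, val χ g (subIdem M _ (belowBlock (M := M) p P e0 v)) *
        conj (val χ g (subIdem M _ (belowBlock (M := M) p P e0 v))) =
      (Nat.card (Subgroup.centralizer ({v} : Set K)) : ℂ) / (Nat.card P : ℂ) := by
  classical
  haveI : ∀ y : K, Fintype (Subgroup.centralizer ({y} : Set K)) := fun y => Fintype.ofFinite _
  haveI := Fintype.ofFinite P
  have h := BlockStar.scaled_subPair_eq_one F.modular F.block F.max F.nilp F.mem F.height ⟨v, hv⟩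
  simp only at h
  have hP : P ⊓ Subgroup.centralizer ({v} : Set K) = P := inf_eq_left.2 fun x hx =>
    Subgroup.mem_centralizer_singleton_iff.2 (F.comm x hx v hv)
  rw [hP] at h
  have h2 := BlockStar.secPairing_eq_subPair F.modular F.block F.max hv χ χ
  rw [BlockStar.secPairing] at h2
  have hP0 : (Nat.card P : ℂ) ≠ 0 := Nat.cast_ne_zero.2 Nat.card_pos.ne'
  rw [h2, eq_div_iff hP0]
  linear_combination (Nat.card (Subgroup.centralizer ({v} : Set K)) : ℂ) * h

/-- The central values. -/
theorem centralVal_central (lam : P →* ℂˣ) {u : K} (hu : u ∈ P) (hc : ∀ k : K, Commute u k) :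
    centralVal (ψ lam : K → ℂ) u = (lam ⟨u, hu⟩ : ℂ) * centralVal (χ : K → ℂ) u := by
  classical
  have hb := isBlockIdem_redElem_blockCoeff (M := M) F.block
  have key : ∀ w : K, w ∈ P → (∀ k : K, Commute w k) → (hw : w ∈ P) →
      (ψ lam : K → ℂ) w = (lam ⟨w, hw⟩ : ℂ) * (χ : K → ℂ) w := by
    intro w _ hwc hw
    obtain ⟨n, hn⟩ := BlockSections.isPElem_of_mem F.modular F.block F.max hw
    have hpp : ppart p w = w := BlockStar.ppart_eq ⟨1, mul_one w, Commute.one_right w, ⟨n, hn⟩,
      by rw [orderOf_one]; exact (Fact.out : p.Prime).not_dvd_one⟩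
    rw [BlockStar.apply_eq_sum_val (M := M) (p := p) (ψ lam) w,
      BlockStar.apply_eq_sum_val (M := M) (p := p) χ w, Finset.mul_sum]
    refine Finset.sum_congr rfl fun c' hc' => ?_
    rw [F.value lam w c' hc', hpp]
    rw [hpp] at hc'
    by_cases hp : PairOf p (⊤ : Subgroup K) (redElem M (blockCoeff c)) (Subgroup.zpowers w) c'
    · obtain ⟨x, hx⟩ := (BlockStar.exists_conj_iff hb F.max).2 hp
      rw [BlockStar.Lam_eq (F.fusInv lam) hx,
        show x * w * x⁻¹ = w by rw [← (hwc x).eq, mul_inv_cancel_right],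
        BlockStar.lamAt_of_mem _ hw]
    · have h0 : val χ w c' = 0 := BlockStar.val_eq_zero_of_not_pairOf F.modular F.block F.mem
        (by rw [hpp]; exact mem_blockIdems.1 hc') (by rw [hpp]; exact hp)
      rw [h0, mul_zero, mul_zero]
  have hdeg : (ψ lam : K → ℂ) 1 = (χ : K → ℂ) 1 := by
    rw [key 1 P.one_mem (fun k => Commute.one_left k) P.one_mem,
      show (⟨1, P.one_mem⟩ : P) = 1 from rfl, map_one, Units.val_one, one_mul]
  rw [centralVal, centralVal, key u hu hc hu, hdeg, mul_div_assoc]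

end StarFamily

end CfsgLib.BrauerPairs
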