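import Cfsg.Agent.Lib.BrauerPairs.QuotSetting
import Cfsg.Agent.Lib.BrauerPairs.StarFamily
import Cfsg.Agent.Lib.BlockStar.LocalRank

/-!
# The local data at the subsections outside the central subgroup

The generalised decomposition numbers at the elements outside the central subgroup are integral
combinations of linear characters of `D`, against local functions stable under the stabiliser of
the maximal pair.
-/

set_option autoImplicit false
set_option linter.style.haveILetI false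
set_option linter.unusedSectionVars false

namespace CfsgLib.BrauerPairs

open Cfsg CfsgLib.Blocks MonoidAlgebra Finset
open CfsgLib.BlockStar (val)
open CfsgLib.BlockSections (belowBlock)
open CfsgLib.BrauerCharacters (centralVal cenElem)
open scoped ComplexConjugate

/-- A crossed family of linear characters is trivialised when the index is prime to the order. -/
theorem exists_twist {T A : Type*} [Group T] [Finite T] [CommGroup A] [Finite A] (N : Subgroup T)
    [N.Normal] (hk : Nat.Coprime N.index (Nat.card A)) (act : T → A → A) (φ μ : T → (A →* ℂˣ))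
    (hcoc : ∀ s t z, φ (s * t) z = φ s (act t z) * μ t z)
    (hN : ∀ s, ∀ c ∈ N, φ (s * c) = φ s) :
    ∃ ν : A →* ℂˣ, (∀ t z, ν (act t z) * μ t z = ν z) ∧
      ∀ (u : A) (a : ℂˣ), (∀ s, φ s u = a) → ν u = a := by
  classical
  haveI := Fintype.ofFinite (T ⧸ N)
  let Mp : A →* ℂˣ := ∏ q : T ⧸ N, φ q.out
  have hpow : ∀ (f : A →* ℂˣ) (z : A),
      ((f z) ^ N.index) ^ Nat.gcdA N.index (Nat.card A) = f z := by
    intro f z
    have hb := Nat.gcd_eq_gcd_ab N.index (Nat.card A)
    rw [hk.gcd_eq_one, Nat.cast_one] at hb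
    have h1 : f z ^ (Nat.card A : ℤ) = 1 := by
      rw [zpow_natCast, ← map_pow, pow_card_eq_one', map_one]
    conv_rhs => rw [← zpow_one (f z), hb, zpow_add, zpow_mul, zpow_mul, h1, one_zpow, mul_one,
      zpow_natCast]
  have hM : ∀ t z, Mp (act t z) * μ t z ^ N.index = Mp z := by
    intro t z
    simp only [Mp, MonoidHom.finsetProd_apply]
    rw [Subgroup.index_eq_card, Nat.card_eq_fintype_card, ← card_univ, ← prod_const,
      ← prod_mul_distrib]
    refine Fintype.prod_equiv (Equiv.mulRight (t : T ⧸ N)) _ _ fun q => ?_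
    rw [← hcoc, Equiv.coe_mulRight]
    obtain ⟨c, hc⟩ := QuotientGroup.mk_out_eq_mul N (q.out * t)
    rw [QuotientGroup.mk_mul, QuotientGroup.out_eq'] at hc
    rw [hc, hN _ _ c.2]
  refine ⟨Mp ^ Nat.gcdA N.index (Nat.card A), fun t z => ?_, fun u a ha => ?_⟩
  · rw [MonoidHom.zpow_apply, MonoidHom.zpow_apply, ← hpow (μ t) z, ← mul_zpow, hM]
  · rw [MonoidHom.zpow_apply]
    simp only [Mp, MonoidHom.finsetProd_apply, ha, prod_const, card_univ]
    rw [← Nat.card_eq_fintype_card, ← Subgroup.index_eq_card]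
    have h := hpow (φ 1) u
    rwa [ha] at h

variable {G : Type*} [Group G] [Fintype G]

theorem mapG_cjEquiv {k : Type*} [Field k] {K : Subgroup G} (x : G) (hK : K = cj x K)
    (a : MonoidAlgebra k K) :
    mapG K.subtype (mapG (cjEquiv x hK).toMonoidHom a) = conjA x⁻¹ (mapG K.subtype a) := by
  induction a using MonoidAlgebra.induction_linear with
  | zero => simp
  | add a b ha hb => simp only [map_add, ha, hb]
  | single g r => simp [mapG, conjA_single]

theorem isPPart_coe {p : ℕ} {K : Subgroup G} {a w : K} (h : IsPPart p (a : G) (w : G)) :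
    IsPPart p a w := by
  obtain ⟨y, hy, hc, ⟨k, hk⟩, hr⟩ := h
  have hmem : y ∈ K := by
    rw [show y = (w : G)⁻¹ * a by rw [← hy, inv_mul_cancel_left]]
    exact K.mul_mem (K.inv_mem w.2) a.2
  exact ⟨⟨y, hmem⟩, Subtype.ext hy, Subtype.ext hc.eq, ⟨k, by rw [← hk, Subgroup.orderOf_coe]⟩,
    by rwa [Subgroup.orderOf_mk]⟩

theorem isPPart_coe' {p : ℕ} {K : Subgroup G} {a w : K} (h : IsPPart p a w) :
    IsPPart p (a : G) (w : G) := by
  obtain ⟨y, hy, hc, ⟨k, hk⟩, hr⟩ := h
  exact ⟨y, congrArg Subtype.val hy, congrArg Subtype.val hc.eq,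
    ⟨k, by rw [Subgroup.orderOf_coe, hk]⟩, by rwa [Subgroup.orderOf_coe]⟩

theorem mem_centralizer_of_isPPart {p : ℕ} {g w : G} (h : IsPPart p g w) :
    g ∈ Subgroup.centralizer ({w} : Set G) := by
  obtain ⟨y, rfl, hc, -, -⟩ := h
  exact Subgroup.mem_centralizer_singleton_iff.2
    ((Commute.refl w).mul_left hc.symm).eq

variable {p : ℕ} [hp : Fact p.Prime] {M : Ideal AlgInt}
  [hMp : M.IsPrime] [CharP (Blocks.Res M) p] [IsAlgClosed (Blocks.Res M)]
  {B : Set (IrrCharacter G)} {D : Subgroup G}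
  {e : MonoidAlgebra (Blocks.Res M) G} {Z : Subgroup G} {v : G}

/-- The data at the subsections outside the central subgroup. -/
structure QuotData (p : ℕ) [Fact p.Prime] (M : Ideal AlgInt) [M.IsPrime]
    (B : Set (IrrCharacter G)) (D : Subgroup G) (e : MonoidAlgebra (Blocks.Res M) G)
    (Z : Subgroup G) (v : G) [Fintype (D →* ℂˣ)] (mm : IrrCharacter G → (D →* ℂˣ) → ℤ)
    (τ : G → G → ℂ) : Prop where
  setting : QuotSetting p M B D e Z v
  value : ∀ η (z : G) (hz : z ∈ D), z ∉ Z → ∀ g, IsPPart p g z →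
    val η g (subIdem M _ (belowBlock (M := M) p D e z)) =
      (∑ lam : D →* ℂˣ, (mm η lam : ℂ) * (lam ⟨z, hz⟩ : ℂ)) * τ z g
  norm : ∀ z ∈ D, z ∉ Z → ∑ g ∈ secSet p z, τ z g * conj (τ z g) =
    (Nat.card (Subgroup.centralizer ({z} : Set G)) : ℂ) / (Nat.card D : ℂ)
  central : ∀ η lam, mm η lam ≠ 0 → ∀ (u : G) (hu : u ∈ D), u ∈ Z →
    (lam ⟨u, hu⟩ : ℂ) = centralVal (η : G → ℂ) u
  stable : ∀ t ∈ pairStab (⊤ : Subgroup G) D e, ∀ z ∈ D, z ∉ Z → ∀ g, IsPPart p g z →
    τ (t * z * t⁻¹) (t * g * t⁻¹) = τ z g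
  classFun : ∀ z ∈ D, z ∉ Z → ∀ c ∈ Subgroup.centralizer ({z} : Set G), ∀ g, IsPPart p g z →
    τ z (c * g * c⁻¹) = τ z g

namespace QuotSetting

variable (S : QuotSetting p M B D e Z v)
include S

theorem exists_family [Fintype (Subgroup.centralizer ({S.socle} : Set G))] :
    ∃ (e' : MonoidAlgebra (Blocks.Res M) (Subgroup.centralizer ({S.socle} : Set G))) (χ : _)
      (ψ : (D.subgroupOf (Subgroup.centralizer ({S.socle} : Set G)) →* ℂˣ) → _),
      mapG (Subgroup.centralizer ({S.socle} : Set G)).subtype e' = e ∧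
      StarFamily (M := M) p (belowBlock (M := M) p D e S.socle)
        (D.subgroupOf (Subgroup.centralizer ({S.socle} : Set G))) e' χ ψ := by
  have hM := S.modular
  obtain ⟨e', he', hmax'⟩ := BlockStar.exists_local hM S.block S.max S.comm S.socle_mem
  have hbl := (BlockSections.belowBlock_spec hM S.block S.max S.socle_mem).1
  have hab := BlockStar.abelian_local S.comm (Subgroup.centralizer ({S.socle} : Set G))
  obtain ⟨χ, ψ, F⟩ := exists_starFamily hM hbl hmax'
    ((hmax'.isNilp_iff_of_abelian (isBlockIdem_redElem_blockCoeff hbl) hab).2 fun x hx => by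
      have hx' := (BlockStar.mem_pairStab_local S.comm S.socle_mem he' x).1 hx
      have hC := S.mem_centralizer_of_fix hx' S.socle_mem S.socle_notMem (by
        rw [Subgroup.mem_centralizer_singleton_iff.1 x.2, mul_inv_cancel_right, inv_mul_cancel]
        exact Z.one_mem)
      exact Subgroup.mem_centralizer_iff.2 fun y hy =>
        Subtype.ext (Subgroup.mem_centralizer_iff.1 hC (y : G) hy)) hab
  exact ⟨e', χ, ψ, he', F⟩

theorem map_centralizer_local {zK : Subgroup.centralizer ({S.socle} : Set G)} (hz : (zK : G) ∈ D)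
    (hzn : (zK : G) ∉ Z) :
    (Subgroup.centralizer ({zK} : Set (Subgroup.centralizer ({S.socle} : Set G)))).map
      (Subgroup.centralizer ({S.socle} : Set G)).subtype =
      Subgroup.centralizer ({(zK : G)} : Set G) := by
  ext g
  constructor
  · rintro ⟨c, hc, rfl⟩
    exact Subgroup.mem_centralizer_singleton_iff.2
      (congrArg Subtype.val (Subgroup.mem_centralizer_singleton_iff.1 hc))
  · intro hg
    exact ⟨⟨g, S.centralizer_le hz hzn hg⟩, Subgroup.mem_centralizer_singleton_iff.2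
      (Subtype.ext (Subgroup.mem_centralizer_singleton_iff.1 hg)), rfl⟩

theorem map_below [Fintype (Subgroup.centralizer ({S.socle} : Set G))]
    {e' : MonoidAlgebra (Blocks.Res M) (Subgroup.centralizer ({S.socle} : Set G))}
    (he' : mapG (Subgroup.centralizer ({S.socle} : Set G)).subtype e' = e)
    (hmax' : IsMaxPair p (⊤ : Subgroup (Subgroup.centralizer ({S.socle} : Set G)))
      (redElem M (blockCoeff (belowBlock (M := M) p D e S.socle)))
      (D.subgroupOf (Subgroup.centralizer ({S.socle} : Set G))) e')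
    {zK : Subgroup.centralizer ({S.socle} : Set G)} (hz : (zK : G) ∈ D) (hzn : (zK : G) ∉ Z) :
    mapG (Subgroup.centralizer ({S.socle} : Set G)).subtype (subIdem M _ (belowBlock (M := M) p
      (D.subgroupOf (Subgroup.centralizer ({S.socle} : Set G))) e' zK)) =
      subIdem M _ (belowBlock (M := M) p D e (zK : G)) := by
  have hM := S.modular
  have hφ := (Subgroup.centralizer ({S.socle} : Set G)).subtype_injective
  have hbl := (BlockSections.belowBlock_spec hM S.block S.max S.socle_mem).1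
  obtain ⟨hb2, hle2, -⟩ := BlockSections.belowBlock_spec hM hbl hmax' (u := zK)
    (Subgroup.mem_subgroupOf.2 hz)
  obtain ⟨-, hle, -⟩ := BlockSections.belowBlock_spec hM S.block S.max hz
  have hn := BlockStar.normalLE_of_abelian hmax'.1.1 (BlockStar.abelian_local S.comm _) hle2
  obtain ⟨b, hb, -, hid⟩ := BlockStar.exists_image_block (p := p) hφ
    (S.map_centralizer_local hz hzn) hb2
  have h := congrArg (mapG (Subgroup.centralizer ({S.socle} : Set G)).subtype) hn.2.2.2.2.2
  rw [map_mul, ← mapG_brau hφ, Subgroup.map_subgroupOf_eq_of_le S.D_le, he'] at h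
  refine (existsUnique_pairLE S.max.1.1 hle.le).unique ?_ hle
  rw [← hid]
  refine BlockStar.pairLE_of_brau S.max.1.1 hle.le S.comm ?_ (by rw [hid]; exact h)
  rw [BrauerCharacters.centralizer_zpowers_eq]
  exact isBlockIdem_subIdem hb

/-- The local data. -/
theorem exists_quotData [Fintype (D →* ℂˣ)] :
    ∃ mm τ, QuotData p M B D e Z v mm τ := by
  classical
  have hM := S.modular
  haveI : M.IsMaximal := hM.2.1
  haveI := Fintype.ofFinite (Subgroup.centralizer ({S.socle} : Set G))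
  haveI := Fintype.ofFinite (IrrCharacter (Subgroup.centralizer ({S.socle} : Set G)))
  haveI := Fintype.ofFinite
    (D.subgroupOf (Subgroup.centralizer ({S.socle} : Set G)) →* ℂˣ)
  obtain ⟨e', χ, ψ, he', F⟩ := S.exists_family
  let K := Subgroup.centralizer ({S.socle} : Set G)
  let P' : Subgroup K := D.subgroupOf K
  let bel : K → MonoidAlgebra (Blocks.Res M) K := fun zK =>
    subIdem M _ (belowBlock (M := M) p P' e' zK)
  have hidem : ∀ zK : K, (zK : G) ∈ D → bel zK * bel zK = bel zK ∧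
      ∀ a ∈ Subgroup.centralizer ({zK} : Set K), conjA a (bel zK) = bel zK := by
    intro zK hz
    have hb := isBlockIdem_subIdem (M := M)
      (BlockSections.belowBlock_spec hM F.block F.max (u := zK) (Subgroup.mem_subgroupOf.2 hz)).1
    exact ⟨hb.mul_self, fun a ha => (mem_ctr.1 hb.mem).2 a ha⟩
  have hcomm : ∀ zK : K, (zK : G) ∈ D → ∀ a : K, IsPPart p a zK →
      Commute (single a (1 : Blocks.Res M)) (bel zK) := by
    intro zK hz a ha
    refine BlockStar.mem_fixedBy_zpowers_iff.1 fun x hx => (hidem zK hz).2 x ?_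
    obtain ⟨j, rfl⟩ := hx
    exact Subgroup.zpow_mem _ (mem_centralizer_of_isPPart ha) j
  let V : G → G → ℂ := fun z g =>
    if h : z ∈ K ∧ g ∈ K then val χ (⟨g, h.2⟩ : K) (bel ⟨z, h.1⟩) else 0
  have hV : ∀ zK gK : K, V (zK : G) (gK : G) = val χ gK (bel zK) := fun zK gK => dif_pos ⟨zK.2, gK.2⟩
  have hgK : ∀ {z g : G}, z ∈ D → z ∉ Z → IsPPart p g z → g ∈ K := fun hz hzn hg =>
    S.centralizer_le hz hzn (mem_centralizer_of_isPPart hg)
  have hnorm : ∀ z ∈ D, z ∉ Z → ∑ g ∈ secSet p z, V z g * conj (V z g) =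
      (Nat.card (Subgroup.centralizer ({z} : Set G)) : ℂ) / (Nat.card D : ℂ) := by
    intro z hz hzn
    obtain ⟨zK, rfl⟩ : ∃ zK : K, (zK : G) = z := ⟨⟨z, S.D_le hz⟩, rfl⟩
    have h := F.sum_secSet_val (v := zK) (Subgroup.mem_subgroupOf.2 hz)
    rw [show Nat.card (Subgroup.centralizer ({zK} : Set K)) =
        Nat.card (Subgroup.centralizer ({(zK : G)} : Set G)) by
      rw [← S.map_centralizer_local hz hzn,
        Subgroup.card_map_of_injective K.subtype_injective],
      Nat.card_congr (Subgroup.subgroupOfEquivOfLe S.D_le).toEquiv] at h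
    rw [← h]
    refine (sum_bij (fun (g : K) _ => (g : G)) (fun g hg => ?_) (fun _ _ _ _ h => Subtype.ext h)
      (fun g hg => ?_) (fun g _ => ?_)).symm
    · exact mem_secSet.2 (isPPart_coe' (mem_secSet.1 hg))
    · exact ⟨⟨g, hgK hz hzn (mem_secSet.1 hg)⟩, mem_secSet.2 (isPPart_coe (mem_secSet.1 hg)), rfl⟩
    · rw [hV]
  have hne : ∀ z ∈ D, z ∉ Z → ∃ g, IsPPart p g z ∧ V z g ≠ 0 := by
    intro z hz hzn
    by_contra hno
    push Not at hno
    have h := hnorm z hz hzn
    rw [sum_eq_zero fun g hg => by rw [hno g (mem_secSet.1 hg), zero_mul], eq_comm, div_eq_zero_iff,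
      Nat.cast_eq_zero, Nat.cast_eq_zero] at h
    exact h.elim Nat.card_pos.ne' Nat.card_pos.ne'
  -- the stabiliser acts on the family
  let T : Subgroup G := pairStab (⊤ : Subgroup G) D e
  let act : T → D → D := fun t z => ⟨t * z * (t : G)⁻¹, S.stab_normalizer t.2 z.2⟩
  have hKt : ∀ t : T, K = cj (t : G)⁻¹ K := fun t => S.cj_centralizer_socle (T.inv_mem t.2)
  have hσ : ∀ (t : T) (a : K), ((cjEquiv (t : G)⁻¹ (hKt t) a : K) : G) = t * a * (t : G)⁻¹ :=
    fun t a => by rw [coe_cjEquiv, inv_inv]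
  have hmove : ∀ (t : T) (zK gK : K), (zK : G) ∈ D → (zK : G) ∉ Z → IsPPart p gK zK →
      V (t * zK * (t : G)⁻¹) (t * gK * (t : G)⁻¹) =
        val (compIrr (cjEquiv (t : G)⁻¹ (hKt t)) χ) gK (bel zK) := by
    intro t zK gK hz hzn hg
    set σ := cjEquiv (t : G)⁻¹ (hKt t) with hσdef
    have hz' : ((σ zK : K) : G) ∈ D := by rw [hσ]; exact S.stab_normalizer t.2 hz
    have hzn' : ((σ zK : K) : G) ∉ Z := by rw [hσ]; exact S.stab_notMem hzn
    have hb : mapG σ.toMonoidHom (bel zK) = bel (σ zK) := by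
      refine mapG_injective K.subtype_injective ?_
      rw [mapG_cjEquiv, inv_inv, S.map_below he' F.max hz hzn, S.map_below he' F.max hz' hzn', hσ]
      exact (BlockSections.conjA_belowBlock hM S.block S.max hz t.2).2
    rw [← hσ t zK, ← hσ t gK, hV, ← hb]
    exact val_comp_iso σ χ _ (fun a => rfl) (hidem zK hz).1 (hcomm zK hz gK hg)
  have hmem : ∀ t : T, compIrr (cjEquiv (t : G)⁻¹ (hKt t)) χ ∈ belowBlock (M := M) p D e S.socle := by
    intro t
    by_contra hnot
    obtain ⟨g, hg, hg0⟩ := hne _ (S.stab_normalizer t.2 S.socle_mem)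
      (S.stab_notMem (t := (t : G)) S.socle_notMem)
    have hg' := Blocks.IsPPart.conj hg (t : G)⁻¹
    rw [show (t : G)⁻¹ * ((t : G) * S.socle * (t : G)⁻¹) * ((t : G)⁻¹)⁻¹ = S.socle by group] at hg'
    let sK : K := ⟨S.socle, S.D_le S.socle_mem⟩
    let gK : K := ⟨_, hgK S.socle_mem S.socle_notMem hg'⟩
    have hgs : IsPPart p gK sK := isPPart_coe hg'
    have h := hmove t sK gK S.socle_mem S.socle_notMem hgs
    rw [F.val_below_zero hnot (Subgroup.mem_subgroupOf.2 S.socle_mem) hgs] at h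
    refine hg0 ?_
    rw [← h]
    congr 1
    simp only [gK]
    group
  choose L hL using fun t => F.surj _ (hmem t)
  let eD : P' ≃* D := Subgroup.subgroupOfEquivOfLe S.D_le
  have heD : ∀ (lam : P' →* ℂˣ) (zK : K) (hz : (zK : G) ∈ D),
      lam.comp eD.symm.toMonoidHom ⟨zK, hz⟩ = lam ⟨zK, Subgroup.mem_subgroupOf.2 hz⟩ :=
    fun lam zK hz => rfl
  let μ : T → (D →* ℂˣ) := fun t => (L t).comp eD.symm.toMonoidHom
  have hkey : ∀ (t : T) (z : G) (hz : z ∈ D), z ∉ Z → ∀ g, IsPPart p g z →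
      V (t * z * (t : G)⁻¹) (t * g * (t : G)⁻¹) = (μ t ⟨z, hz⟩ : ℂ) * V z g := by
    intro t z hz hzn g hg
    obtain ⟨zK, rfl⟩ : ∃ zK : K, (zK : G) = z := ⟨⟨z, S.D_le hz⟩, rfl⟩
    obtain ⟨gK, rfl⟩ : ∃ gK : K, (gK : G) = g := ⟨⟨g, hgK hz hzn hg⟩, rfl⟩
    rw [hmove t zK gK hz hzn (isPPart_coe hg), hV, ← hL t]
    exact F.val_below (L t) (Subgroup.mem_subgroupOf.2 hz) (isPPart_coe hg)
  have huc : ∀ (uK : K), (uK : G) ∈ Z → ∀ k : K, Commute uK k := fun uK hu k =>
    Subtype.ext (S.zcen _ hu k).eq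
  have hcv0 : ∀ (uK : K), (uK : G) ∈ Z → centralVal (χ : K → ℂ) uK ≠ 0 := fun uK hu h0 => by
    have h := (BrauerCharacters.centralVal_spec χ (huc uK hu)).1
    rw [h0, zero_pow (isOfFinOrder_of_finite uK).orderOf_pos.ne'] at h
    exact zero_ne_one h
  have hμZ : ∀ (t : T) (u : G) (hu : u ∈ D), u ∈ Z → μ t ⟨u, hu⟩ = 1 := by
    intro t u hu huZ
    obtain ⟨uK, rfl⟩ : ∃ uK : K, (uK : G) = u := ⟨⟨u, S.D_le hu⟩, rfl⟩
    have h := F.centralVal_central (L t) (Subgroup.mem_subgroupOf.2 hu) (huc uK huZ)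
    rw [hL t] at h
    have hfix : cjEquiv (t : G)⁻¹ (hKt t) uK = uK := Subtype.ext (by
      rw [hσ, ← (S.zcen _ huZ (t : G)).eq, mul_inv_cancel_right])
    rw [centralVal, compIrr_apply, compIrr_apply, map_one, hfix, ← centralVal, eq_comm,
      mul_eq_right₀ (hcv0 uK huZ)] at h
    exact Units.val_eq_one.1 h
  have hμcoc : ∀ (s t : T) (z : D), μ (s * t) z = μ s (act t z) * μ t z := by
    intro s t z
    obtain ⟨z, hz⟩ := z
    by_cases hzn : z ∈ Z
    · rw [hμZ _ _ _ hzn, hμZ _ _ _ hzn, hμZ _ _ _ (by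
        show (t : G) * z * (t : G)⁻¹ ∈ Z
        rwa [← (S.zcen _ hzn (t : G)).eq, mul_inv_cancel_right]), one_mul]
    · obtain ⟨g, hg, hg0⟩ := hne z hz hzn
      refine Units.ext (mul_right_cancel₀ hg0 ?_)
      rw [Units.val_mul, mul_assoc, ← hkey t z hz hzn g hg, ← hkey s _ _ (S.stab_notMem hzn) _
        (Blocks.IsPPart.conj hg (t : G)), ← hkey (s * t) z hz hzn g hg, Subgroup.coe_mul]
      congr 1 <;> group
  have hclass : ∀ z ∈ D, z ∉ Z → ∀ c ∈ Subgroup.centralizer ({z} : Set G), ∀ g, IsPPart p g z →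
      V z (c * g * c⁻¹) = V z g := by
    intro z hz hzn c hc g hg
    obtain ⟨zK, rfl⟩ : ∃ zK : K, (zK : G) = z := ⟨⟨z, S.D_le hz⟩, rfl⟩
    obtain ⟨gK, rfl⟩ : ∃ gK : K, (gK : G) = g := ⟨⟨g, hgK hz hzn hg⟩, rfl⟩
    obtain ⟨cK, rfl⟩ : ∃ cK : K, (cK : G) = c := ⟨⟨c, S.centralizer_le hz hzn hc⟩, rfl⟩
    have hcK : cK ∈ Subgroup.centralizer ({zK} : Set K) := Subgroup.mem_centralizer_singleton_iff.2
      (Subtype.ext (Subgroup.mem_centralizer_singleton_iff.1 hc))
    rw [show (cK : G) * gK * (cK : G)⁻¹ = ((cK * gK * cK⁻¹ : K) : G) from rfl, hV, hV]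
    conv_lhs => rw [← (hidem zK hz).2 cK hcK]
    exact BlockStar.val_conj χ cK (hidem zK hz).1 (hcomm zK hz gK (isPPart_coe hg))
  let N : Subgroup T := (Subgroup.centralizer (D : Set G)).subgroupOf T
  haveI : N.Normal := Subgroup.normal_subgroupOf_of_le_normalizer fun y hy => by
    have := pairStab_le_normalizer_cenIn hy
    rwa [cenIn_top] at this
  have hcD : ∀ c ∈ N, ∀ z : D, act c z = z := fun c hc z => Subtype.ext (by
    show (c : G) * z * (c : G)⁻¹ = z
    rw [← Subgroup.mem_centralizer_iff.1 (Subgroup.mem_subgroupOf.1 hc) (z : G) z.2,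
      mul_inv_cancel_right])
  have hμN : ∀ c ∈ N, μ c = 1 := by
    intro c hc
    refine MonoidHom.ext fun z => ?_
    obtain ⟨z, hz⟩ := z
    by_cases hzn : z ∈ Z
    · exact hμZ _ _ _ hzn
    · obtain ⟨g, hg, hg0⟩ := hne z hz hzn
      have hcz : (c : G) * z * (c : G)⁻¹ = z := congrArg Subtype.val (hcD c hc ⟨z, hz⟩)
      have h := hkey c z hz hzn g hg
      rw [hcz, hclass z hz hzn c (Subgroup.mem_centralizer_singleton_iff.2
        (mul_inv_eq_iff_eq_mul.1 hcz)) g hg, eq_comm, mul_eq_right₀ hg0] at h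
      exact Units.val_eq_one.1 h
  -- normalisation
  letI : CommGroup D := { (inferInstance : Group D) with
    mul_comm := fun a b => Subtype.ext (S.comm a a.2 b b.2) }
  let om : Z.subgroupOf D →* ℂ :=
    { toFun := fun u => centralVal (χ : K → ℂ) (⟨(u : D), S.D_le (u : D).2⟩ : K)
      map_one' := div_self (CharTheory.apply_one_ne_zero_of_isIrr χ.2)
      map_mul' := fun a b => centralVal_mul_central χ
        (huc (⟨(a : D), S.D_le (a : D).2⟩ : K) (Subgroup.mem_subgroupOf.1 a.2))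
        (⟨(b : D), S.D_le (b : D).2⟩ : K) }
  obtain ⟨κ, hκ⟩ := MonoidHom.domRestrict_surjective ℂ (Z.subgroupOf D) om.toHomUnits⁻¹
  have hidx := S.max.not_dvd_relIndex S.hb
  have hDC : D ≤ Subgroup.centralizer (D : Set G) := fun d hd =>
    Subgroup.mem_centralizer_iff.2 fun e he => S.comm e he d hd
  rw [cenIn_top, sup_eq_right.2 hDC] at hidx
  obtain ⟨nd, hnd⟩ := (IsPGroup.iff_card).1 S.pgroup
  let act' : T → (D →* D) := fun t =>
    { toFun := act t
      map_one' := Subtype.ext (by simp [act])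
      map_mul' := fun a b => Subtype.ext (by simp [act, mul_assoc]) }
  obtain ⟨ν, hν, hν'⟩ := exists_twist N
    (by rw [hnd]; exact ((hp.out.coprime_iff_not_dvd.2 hidx).symm.pow_right nd)) act
    (fun t => μ t * κ.comp (act' t)) μ (fun s t z => by
      show μ (s * t) z * κ (act (s * t) z) = μ s (act t z) * κ (act s (act t z)) * μ t z
      rw [hμcoc, show act s (act t z) = act (s * t) z from Subtype.ext (by simp [act, mul_assoc]),
        mul_right_comm])
    (fun s c hc => MonoidHom.ext fun z => by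
      show μ (s * c) z * κ (act (s * c) z) = μ s z * κ (act s z)
      rw [hμcoc, hcD c hc, hμN c hc, show act (s * c) z = act s z from Subtype.ext (by
        have h := congrArg Subtype.val (hcD c hc z)
        show (s : G) * c * z * ((s : G) * c)⁻¹ = s * z * (s : G)⁻¹
        calc (s : G) * c * z * ((s : G) * c)⁻¹ = s * ((c : G) * z * (c : G)⁻¹) * (s : G)⁻¹ := by group
          _ = _ := by rw [show (c : G) * z * (c : G)⁻¹ = z from h]), MonoidHom.one_apply, mul_one])
  have hνZ : ∀ (u : G) (hu : u ∈ D), u ∈ Z →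
      (ν ⟨u, hu⟩ : ℂ) * centralVal (χ : K → ℂ) (⟨u, S.D_le hu⟩ : K) = 1 := by
    intro u hu huZ
    rw [hν' ⟨u, hu⟩ (κ ⟨u, hu⟩) fun t => by
      show μ t ⟨u, hu⟩ * κ (act t ⟨u, hu⟩) = _
      rw [hμZ t u hu huZ, one_mul]
      congr 1
      refine Subtype.ext ?_
      show (t : G) * u * (t : G)⁻¹ = u
      rw [← (S.zcen _ huZ (t : G)).eq, mul_inv_cancel_right]]
    have h := congrArg (fun f : Z.subgroupOf D →* ℂˣ =>
      f ⟨⟨u, hu⟩, Subgroup.mem_subgroupOf.2 huZ⟩) hκ
    simp only [MonoidHom.inv_apply] at h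
    have h2 : κ ⟨u, hu⟩ * om.toHomUnits ⟨⟨u, hu⟩, Subgroup.mem_subgroupOf.2 huZ⟩ = 1 := by
      rw [← inv_inv (om.toHomUnits _), ← h]
      exact mul_inv_cancel _
    have h3 := congrArg Units.val h2
    rw [Units.val_mul, MonoidHom.coe_toHomUnits] at h3
    exact h3
  refine ⟨fun η lam => subMult K η (ψ ((lam * ν).comp eD.toMonoidHom)),
    fun z g => (if hz : z ∈ D then (ν ⟨z, hz⟩ : ℂ) else 0) * V z g, S, ?_, ?_, ?_, ?_, ?_⟩
  · intro η z hz hzn g hg
    obtain ⟨zK, rfl⟩ : ∃ zK : K, (zK : G) = z := ⟨⟨z, S.D_le hz⟩, rfl⟩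
    obtain ⟨gK, rfl⟩ : ∃ gK : K, (gK : G) = g := ⟨⟨g, hgK hz hzn hg⟩, rfl⟩
    have hg' := isPPart_coe hg
    rw [← S.map_below he' F.max hz hzn,
      val_subtype K η (hidem zK hz).1 (hcomm zK hz gK hg'), dif_pos hz, hV, sum_mul]
    rw [← sum_subset (subset_univ (univ.image ψ)) fun ξ _ hξ => by
        rw [F.val_below_zero (fun h => hξ (mem_image.2 ⟨(F.surj ξ h).choose, mem_univ _,
          (F.surj ξ h).choose_spec⟩)) (Subgroup.mem_subgroupOf.2 hz) hg', mul_zero],
      sum_image fun _ _ _ _ h => F.inj h]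
    refine (Fintype.sum_equiv ((Equiv.mulRight ν).trans
      ⟨fun f => f.comp eD.toMonoidHom, fun f => f.comp eD.symm.toMonoidHom,
        fun f => MonoidHom.ext fun a => congrArg f (eD.apply_symm_apply a),
        fun f => MonoidHom.ext fun a => congrArg f (eD.symm_apply_apply a)⟩) _ _ fun lam => ?_).symm
    rw [F.val_below _ (Subgroup.mem_subgroupOf.2 hz) hg']
    show _ = (subMult K η (ψ ((lam * ν).comp eD.toMonoidHom)) : ℂ) *
      ((((lam * ν) ⟨zK, hz⟩ : ℂˣ) : ℂ) * val χ gK (bel zK))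
    rw [MonoidHom.mul_apply, Units.val_mul]
    simp only [bel]
    ring
  · intro z hz hzn
    simp only [dif_pos hz]
    rw [← hnorm z hz hzn]
    refine sum_congr rfl fun g _ => ?_
    have h1 : ‖(ν ⟨z, hz⟩ : ℂ)‖ = 1 := by
      refine Complex.norm_eq_one_of_pow_eq_one (n := orderOf (⟨z, hz⟩ : D)) ?_
        (isOfFinOrder_of_finite _).orderOf_pos.ne'
      rw [← Units.val_pow_eq_pow_val, ← map_pow, pow_orderOf_eq_one, map_one, Units.val_one]
    have h2 := Complex.mul_conj' (ν ⟨z, hz⟩ : ℂ)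
    rw [h1, Complex.ofReal_one, one_pow] at h2
    rw [map_mul]
    linear_combination (V z g * conj (V z g)) * h2
  · intro η lam h u hu huZ
    have hu' : ∀ g : G, Commute u g := S.zcen u huZ
    have h1 := centralVal_eq_of_subMult_ne_zero (G := G) K (u := (⟨u, S.D_le hu⟩ : K)) hu' h
    rw [F.centralVal_central _ (Subgroup.mem_subgroupOf.2 hu) (huc ⟨u, S.D_le hu⟩ huZ)] at h1
    refine Eq.trans ?_ h1
    show _ = ((((lam * ν) ⟨u, hu⟩ : ℂˣ)) : ℂ) * _
    rw [MonoidHom.mul_apply, Units.val_mul, mul_assoc, hνZ u hu huZ, mul_one]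
  · intro t ht z hz hzn g hg
    simp only [dif_pos hz, dif_pos (S.stab_normalizer ht hz)]
    rw [hkey ⟨t, ht⟩ z hz hzn g hg, ← mul_assoc, ← Units.val_mul]
    congr 2
    exact hν ⟨t, ht⟩ ⟨z, hz⟩
  · intro z hz hzn c hc g hg
    simp only [hclass z hz hzn c hc g hg]

end QuotSetting

end CfsgLib.BrauerPairs
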