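import Cfsg.Agent.Lib.BrauerPairs.ValTransport
import Cfsg.Agent.Lib.BrauerPairs.BrauerFeit
import Cfsg.Agent.Lib.BGAppendix.Basic
import Mathlib.GroupTheory.SpecificGroups.Cyclic

/-!
# Blocks with abelian defect group cyclic modulo a central subgroup

The elements outside the central subgroup have their centralisers below that of one element, and
the stabiliser of a maximal pair acts freely on the quotient.
-/

set_option autoImplicit false
set_option linter.style.haveILetI false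
set_option linter.unusedSectionVars false

namespace CfsgLib.BrauerPairs

open Cfsg Finset

/-- A coprime automorphism of a cyclic `p`-group fixing a nontrivial element is trivial. -/
theorem aut_eq_one_of_cyclic {p : ℕ} [hp : Fact p.Prime] {Y : Type*} [CommGroup Y] [Finite Y]
    [IsCyclic Y] (hY : IsPGroup p Y) {β : MulAut Y} {k : ℕ} (hk : ¬ p ∣ k) (hβ : β ^ k = 1) {y : Y}
    (hy : y ≠ 1) (hfix : β y = y) : β = 1 := by
  let f : Y →* Y := β.toMonoidHom / MonoidHom.id Y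
  by_contra hne
  have hker : f.ker ≠ ⊥ := fun h => hy (by
    have h1 : y ∈ f.ker := by simp [f, MonoidHom.mem_ker, hfix]
    rwa [h, Subgroup.mem_bot] at h1)
  have hran : f.range ≠ ⊥ := fun h => hne (MulEquiv.ext fun w => by
    have h1 : f w ∈ f.range := ⟨w, rfl⟩
    rw [h, Subgroup.mem_bot] at h1
    simpa [f, div_eq_one] using h1)
  have hord : ∀ L : Subgroup Y, L ≠ ⊥ → ∃ x ∈ L, orderOf x = p := by
    intro L hL
    haveI := (Subgroup.nontrivial_iff_ne_bot L).2 hL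
    obtain ⟨n, hn, hcard⟩ := (IsPGroup.nontrivial_iff_card (hY.to_subgroup L)).1 inferInstance
    obtain ⟨x, hx⟩ := exists_prime_orderOf_dvd_card' p (G := L) (hcard ▸ dvd_pow_self p hn.ne')
    exact ⟨x, x.2, by rw [← hx, Subgroup.orderOf_coe]⟩
  obtain ⟨r, hr, hrp⟩ := hord _ hran
  obtain ⟨s, hs, hsp⟩ := hord _ hker
  have heq := BGAppendix.eq_of_card_eq_of_le_cyclic (⊤ : Subgroup Y) (Subgroup.zpowers r)
    (Subgroup.zpowers s) (isCyclic_of_surjective Subgroup.topEquiv.symm.toMonoidHom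
      Subgroup.topEquiv.symm.surjective) le_top le_top
    (by rw [Nat.card_zpowers, Nat.card_zpowers, hrp, hsp])
  have hrk : r ∈ f.ker := Subgroup.zpowers_le.2 hs (heq ▸ Subgroup.mem_zpowers r)
  obtain ⟨w, rfl⟩ := hr
  have hfd : β (f w) = f w := by
    have := MonoidHom.mem_ker.1 hrk
    simpa [f, div_eq_one] using this
  have hiter : ∀ j : ℕ, (β ^ j) w = f w ^ j * w := by
    intro j
    induction j with
    | zero => simp
    | succ j ih =>
      rw [pow_succ', MulAut.mul_apply, ih, map_mul, map_pow, hfd,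
        show β w = f w * w by simp [f], ← mul_assoc, ← pow_succ]
  have h1 := hiter k
  rw [hβ, MulAut.one_apply, right_eq_mul] at h1
  have h2 := orderOf_dvd_of_pow_eq_one h1
  rw [hrp] at h2
  exact hk h2

variable {G : Type*} [Group G] [Fintype G] {p : ℕ} [hp : Fact p.Prime] {M : Ideal AlgInt}
  [hMp : M.IsPrime] [CharP (Blocks.Res M) p] [IsAlgClosed (Blocks.Res M)]
  {B : Set (IrrCharacter G)} {D : Subgroup G}
  {e : MonoidAlgebra (Blocks.Res M) G} {Z : Subgroup G} {v : G}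

/-- The setting: an abelian maximal pair, cyclic over a central subgroup. -/
structure QuotSetting (p : ℕ) (M : Ideal AlgInt) [M.IsPrime] (B : Set (IrrCharacter G))
    (D : Subgroup G) (e : MonoidAlgebra (Blocks.Res M) G) (Z : Subgroup G) (v : G) : Prop where
  modular : IsPModular p M
  block : IsPBlock M B
  max : IsMaxPair p (⊤ : Subgroup G) (redElem M (blockCoeff B)) D e
  comm : ∀ x ∈ D, ∀ y ∈ D, x * y = y * x
  zle : Z ≤ D
  zcen : ∀ z ∈ Z, ∀ g : G, Commute z g
  vmem : v ∈ D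
  gen : ∀ d ∈ D, ∃ i : ℤ, ∃ z ∈ Z, d = v ^ i * z
  vnot : v ∉ Z

namespace QuotSetting

variable (S : QuotSetting p M B D e Z v)
include S

theorem pgroup : IsPGroup p D := S.max.1.1.1

theorem hb : IsBlockIdem (⊤ : Subgroup G) (redElem M (blockCoeff B)) :=
  isBlockIdem_redElem_blockCoeff (M := M) S.block

theorem isPElem {d : G} (hd : d ∈ D) : ∃ k : ℕ, orderOf d = p ^ k :=
  BlockSections.isPElem_of_mem S.modular S.block S.max hd

/-- A distinguished element of order `p` modulo `Z`. -/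
theorem exists_socle : ∃ y ∈ D, y ∉ Z ∧ ∀ d ∈ D, d ∉ Z → ∃ j : ℤ, ∃ z ∈ Z, y = d ^ j * z := by
  obtain ⟨k, hk⟩ := S.isPElem S.vmem
  have hex : ∃ b : ℕ, v ^ p ^ b ∈ Z := ⟨k, by rw [← hk, pow_orderOf_eq_one]; exact Z.one_mem⟩
  classical
  set b := Nat.find hex with hbdef
  have hb0 : b ≠ 0 := fun h => S.vnot (by
    have := Nat.find_spec hex
    rwa [← hbdef, h, pow_zero, pow_one] at this)
  have hbs : v ^ p ^ b ∈ Z := Nat.find_spec hex
  have hmin : ∀ c < b, v ^ p ^ c ∉ Z := fun c hc => Nat.find_min hex hc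
  have hint : ∀ n : ℤ, ((p ^ b : ℕ) : ℤ) ∣ n → v ^ n ∈ Z := by
    rintro n ⟨m, rfl⟩
    rw [zpow_mul, zpow_natCast]
    exact Z.zpow_mem hbs m
  refine ⟨v ^ p ^ (b - 1), D.pow_mem S.vmem _, hmin _ (by omega), fun d hd hdZ => ?_⟩
  obtain ⟨i, z, hz, rfl⟩ := S.gen d hd
  obtain ⟨s, hs, hsg⟩ := (Nat.dvd_prime_pow hp.out).1 (Int.gcd_dvd_natAbs_right i ((p ^ b : ℕ) : ℤ) :
    Int.gcd i ((p ^ b : ℕ) : ℤ) ∣ p ^ b)
  have hbez : ((p ^ s : ℕ) : ℤ) = i * Int.gcdA i ((p ^ b : ℕ) : ℤ) +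
      ((p ^ b : ℕ) : ℤ) * Int.gcdB i ((p ^ b : ℕ) : ℤ) := by
    rw [← hsg]; exact Int.gcd_eq_gcd_ab _ _
  have hsb : s < b := by
    refine lt_of_le_of_ne hs fun h => hdZ ?_
    refine Z.mul_mem (hint i ?_) hz
    rw [← h, ← hsg]
    exact Int.gcd_dvd_left _ _
  refine ⟨Int.gcdA i ((p ^ b : ℕ) : ℤ) * ((p ^ (b - 1 - s) : ℕ) : ℤ),
    v ^ (((p ^ b : ℕ) : ℤ) * Int.gcdB i ((p ^ b : ℕ) : ℤ) * ((p ^ (b - 1 - s) : ℕ) : ℤ)) *
      (z ^ (Int.gcdA i ((p ^ b : ℕ) : ℤ) * ((p ^ (b - 1 - s) : ℕ) : ℤ)))⁻¹,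
    Z.mul_mem (hint _ (Dvd.dvd.mul_right (dvd_mul_right _ _) _)) (Z.inv_mem (Z.zpow_mem hz _)), ?_⟩
  have hc : Commute z (v ^ (i : ℤ)) := (S.zcen z hz _)
  rw [hc.symm.mul_zpow, ← zpow_mul]
  generalize hA : Int.gcdA i ((p ^ b : ℕ) : ℤ) * ((p ^ (b - 1 - s) : ℕ) : ℤ) = A
  have hc2 : ∀ g : G, Commute (z ^ A) g := fun g => (S.zcen z hz g).zpow_left A
  rw [mul_assoc, ← mul_assoc (z ^ A), (hc2 _).eq, mul_assoc (v ^ _), mul_inv_cancel, mul_one,
    ← zpow_add, ← hA, show i * (Int.gcdA i ((p ^ b : ℕ) : ℤ) * ((p ^ (b - 1 - s) : ℕ) : ℤ)) +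
      ((p ^ b : ℕ) : ℤ) * Int.gcdB i ((p ^ b : ℕ) : ℤ) * ((p ^ (b - 1 - s) : ℕ) : ℤ) =
      ((p ^ (b - 1) : ℕ) : ℤ) by
    rw [← mul_assoc, ← add_mul, ← hbez, ← Nat.cast_mul, ← pow_add]
    congr 2
    congr 1
    omega, zpow_natCast]

/-- The distinguished element. -/
noncomputable def socle : G := S.exists_socle.choose

theorem socle_mem : S.socle ∈ D := S.exists_socle.choose_spec.1

theorem socle_notMem : S.socle ∉ Z := S.exists_socle.choose_spec.2.1

theorem centralizer_le {d : G} (hd : d ∈ D) (hdZ : d ∉ Z) :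
    Subgroup.centralizer ({d} : Set G) ≤ Subgroup.centralizer ({S.socle} : Set G) := by
  obtain ⟨j, z, hz, hy⟩ := S.exists_socle.choose_spec.2.2 d hd hdZ
  intro g hg
  have hc : Commute g d := Subgroup.mem_centralizer_singleton_iff.1 hg
  refine Subgroup.mem_centralizer_singleton_iff.2 ?_
  show g * S.socle = S.socle * g
  rw [socle, hy]
  exact ((hc.zpow_right j).mul_right (S.zcen z hz g).symm).eq

theorem stab_index : ∃ k : ℕ, ¬ p ∣ k ∧ ∀ t ∈ pairStab (⊤ : Subgroup G) D e,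
    t ^ k ∈ Subgroup.centralizer (D : Set G) := by
  haveI : M.IsMaximal := S.modular.2.1
  have hidx := S.max.not_dvd_relIndex S.hb
  have hDC : D ≤ Subgroup.centralizer (D : Set G) := fun d hd =>
    Subgroup.mem_centralizer_iff.2 fun e he => S.comm e he d hd
  rw [cenIn_top, sup_eq_right.2 hDC] at hidx
  refine ⟨_, hidx, fun t ht => ?_⟩
  haveI : ((Subgroup.centralizer (D : Set G)).subgroupOf (pairStab (⊤ : Subgroup G) D e)).Normal :=
    Subgroup.normal_subgroupOf_of_le_normalizer fun y hy => by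
      have := pairStab_le_normalizer_cenIn hy
      rwa [cenIn_top] at this
  exact Subgroup.mem_subgroupOf.1 (Subgroup.pow_index_mem
    ((Subgroup.centralizer (D : Set G)).subgroupOf (pairStab (⊤ : Subgroup G) D e)) ⟨t, ht⟩)

theorem stab_normalizer {t : G} (ht : t ∈ pairStab (⊤ : Subgroup G) D e) {d : G} (hd : d ∈ D) :
    t * d * t⁻¹ ∈ D :=
  (Subgroup.mem_normalizer_iff.1 (mem_pairStab.1 ht).2.1 d).1 hd

theorem stab_notMem {t : G} {d : G} (hdZ : d ∉ Z) : t * d * t⁻¹ ∉ Z := fun h => hdZ (by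
  have h1 := (S.zcen _ h t⁻¹).eq
  rw [show d = t⁻¹ * (t * d * t⁻¹) * t by group, ← h1, inv_mul_cancel_right]
  exact h)

omit S in
/-- The quotient of `D` by `Z`. -/
abbrev Quot (D Z : Subgroup G) [(Z.subgroupOf D).Normal] : Type _ := D ⧸ Z.subgroupOf D

/-- An element of the stabiliser fixing a nontrivial class modulo `Z` centralises `D`. -/
theorem mem_centralizer_of_fix {t : G} (ht : t ∈ pairStab (⊤ : Subgroup G) D e) {d : G}
    (hd : d ∈ D) (hdZ : d ∉ Z) (hfix : d⁻¹ * (t * d * t⁻¹) ∈ Z) :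
    t ∈ Subgroup.centralizer (D : Set G) := by
  obtain ⟨k, hk, hpow⟩ := S.stab_index
  letI : CommGroup D := { (inferInstance : Group D) with
    mul_comm := fun a b => Subtype.ext (S.comm a a.2 b b.2) }
  set N := Z.subgroupOf D with hN
  haveI : N.Normal := Subgroup.normal_of_isMulCommutative N
  haveI : IsCyclic (D ⧸ N) := ⟨⟨((⟨v, S.vmem⟩ : D) : D ⧸ N), fun q => by
    obtain ⟨⟨w, hw⟩, rfl⟩ := QuotientGroup.mk_surjective q
    obtain ⟨i, z, hz, rfl⟩ := S.gen w hw
    refine ⟨i, ?_⟩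
    show ((⟨v, S.vmem⟩ : D) : D ⧸ N) ^ i = _
    rw [← QuotientGroup.mk_zpow, QuotientGroup.eq, hN, Subgroup.mem_subgroupOf]
    simpa using hz⟩⟩
  let σ : MulAut D :=
    { toFun := fun x => ⟨t * x * t⁻¹, S.stab_normalizer ht x.2⟩
      invFun := fun x => ⟨t⁻¹ * x * t, by
        simpa using S.stab_normalizer (inv_mem ht) x.2⟩
      left_inv := fun x => Subtype.ext (by simp [mul_assoc])
      right_inv := fun x => Subtype.ext (by simp [mul_assoc])
      map_mul' := fun x y => Subtype.ext (by simp [mul_assoc]) }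
  have hσ : ∀ x ∈ N, σ x ∈ N := fun x hx => by
    rw [hN, Subgroup.mem_subgroupOf] at hx ⊢
    show t * (x : G) * t⁻¹ ∈ Z
    rwa [← (S.zcen _ hx t).eq, mul_inv_cancel_right]
  have hmap : N.map σ.toMonoidHom = N := Subgroup.eq_of_le_of_card_ge
    (fun y ⟨x, hx, hxy⟩ => hxy ▸ hσ x hx)
    (by rw [Subgroup.card_map_of_injective σ.injective])
  let β : MulAut (D ⧸ N) := QuotientGroup.congr N N σ hmap
  have hβ : ∀ x : D, β (x : D ⧸ N) = (σ x : D ⧸ N) := fun x => rfl
  have hiter : ∀ (j : ℕ) (x : D), ∃ y : D, (y : G) = t ^ j * x * (t ^ j)⁻¹ ∧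
      (β ^ j) (x : D ⧸ N) = (y : D ⧸ N) := by
    intro j
    induction j with
    | zero => exact fun x => ⟨x, by simp, rfl⟩
    | succ j ih =>
      intro x
      obtain ⟨y, hy, hy'⟩ := ih x
      refine ⟨σ y, ?_, by rw [pow_succ', MulAut.mul_apply, hy', hβ]⟩
      show t * (y : G) * t⁻¹ = _
      rw [hy, pow_succ']; group
  have hβk : β ^ k = 1 := by
    refine MulEquiv.ext fun q => ?_
    obtain ⟨x, rfl⟩ := QuotientGroup.mk_surjective q
    obtain ⟨y, hy, hy'⟩ := hiter k x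
    rw [hy', MulAut.one_apply]
    congr 1
    refine Subtype.ext ?_
    rw [hy, ← Subgroup.mem_centralizer_iff.1 (hpow t ht) x x.2, mul_inv_cancel_right]
  have hβ1 : β = 1 := by
    refine aut_eq_one_of_cyclic (S.pgroup.to_quotient N) hk hβk
      (y := ((⟨d, hd⟩ : D) : D ⧸ N)) (fun h => hdZ ?_) ?_
    · rw [QuotientGroup.eq_one_iff, hN, Subgroup.mem_subgroupOf] at h; exact h
    · rw [hβ, eq_comm, QuotientGroup.eq, hN, Subgroup.mem_subgroupOf]
      simpa [σ] using hfix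
  refine Subgroup.mem_centralizer_iff.2 fun x hx => ?_
  have h1 := congrArg (fun γ : MulAut (D ⧸ N) => γ ((⟨x, hx⟩ : D) : D ⧸ N)) hβ1
  simp only [MulAut.one_apply, hβ] at h1
  rw [eq_comm, QuotientGroup.eq, hN, Subgroup.mem_subgroupOf] at h1
  have h2 : x⁻¹ * (t * x * t⁻¹) ∈ Z := by simpa [σ] using h1
  set z := x⁻¹ * (t * x * t⁻¹) with hzdef
  have htx : t * x * t⁻¹ = x * z := by rw [hzdef, mul_inv_cancel_left]
  have hj : ∀ j : ℕ, t ^ j * x * (t ^ j)⁻¹ = x * z ^ j := by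
    intro j
    induction j with
    | zero => simp
    | succ j ih =>
      calc t ^ (j + 1) * x * (t ^ (j + 1))⁻¹ = t * (t ^ j * x * (t ^ j)⁻¹) * t⁻¹ := by
            rw [pow_succ']; group
        _ = t * x * (z ^ j * t⁻¹) := by rw [ih]; group
        _ = t * x * t⁻¹ * z ^ j := by
            rw [((S.zcen z h2 t⁻¹).pow_left j).eq]; group
        _ = x * z ^ (j + 1) := by rw [htx, mul_assoc, ← pow_succ']
  have h3 := hj k
  rw [← Subgroup.mem_centralizer_iff.1 (hpow t ht) x hx, mul_inv_cancel_right, left_eq_mul] at h3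
  obtain ⟨m, hm⟩ := S.isPElem (S.zle h2)
  have h4 : z = 1 := by
    rcases Nat.eq_zero_or_pos m with rfl | hm0
    · exact orderOf_eq_one_iff.1 (by rw [hm, pow_zero])
    · exact absurd ((dvd_pow_self p hm0.ne').trans (hm ▸ orderOf_dvd_of_pow_eq_one h3)) hk
  rw [h4, mul_one, mul_inv_eq_iff_eq_mul] at htx
  exact htx.symm

/-- The stabiliser preserves the centraliser of the distinguished element. -/
theorem cj_centralizer_socle {t : G} (ht : t ∈ pairStab (⊤ : Subgroup G) D e) :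
    Subgroup.centralizer ({S.socle} : Set G) =
      cj t (Subgroup.centralizer ({S.socle} : Set G)) := by
  have h : cj t (Subgroup.centralizer ({S.socle} : Set G)) ≤
      Subgroup.centralizer ({S.socle} : Set G) := by
    rw [← BlockSections.centralizer_cj_singleton]
    exact S.centralizer_le (S.stab_normalizer ht S.socle_mem) (S.stab_notMem S.socle_notMem)
  exact (Subgroup.eq_of_le_of_card_ge h
    (by rw [Subgroup.card_map_of_injective (MulAut.conj t).injective])).symm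

theorem D_le : D ≤ Subgroup.centralizer ({S.socle} : Set G) := fun x hx =>
  Subgroup.mem_centralizer_singleton_iff.2 (S.comm x hx _ S.socle_mem)

end QuotSetting

end CfsgLib.BrauerPairs
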