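import Cfsg.Agent.Lib.BrauerPairs.QuotFunctionals
import Cfsg.Agent.Lib.BlockSections.Major
import Cfsg.Agent.Lib.BrauerPairs.Domination
import Cfsg.Agent.Lib.CharDegreesTheory.InflationBlocks

/-!
# Blocks with abelian defect group of rank two or three

A block whose abelian defect group has two generators has at most as many characters as the
defect group has elements; with three generators the cube is bounded by the fifth power.
-/

set_option autoImplicit false
set_option linter.style.haveILetI false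
set_option linter.unusedSectionVars false

universe w

namespace CfsgLib.BrauerPairs

open Cfsg CfsgLib.BrauerCharacters Finset CfsgLib.BlockSections CfsgLib.Jordan

variable {G : Type w} [Group G] [Fintype G] {p : ℕ} [hp : Fact p.Prime] {M : Ideal AlgInt}
  [hMp : M.IsPrime] {B : Set (IrrCharacter G)} {D : Subgroup G}

/-- A major subsection bounds the number of characters by the rank of its block. -/
theorem card_le_pow_mul_blockRank (y : G) [Fintype (Subgroup.centralizer ({y} : Set G))]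
    (b : Set (IrrCharacter (Subgroup.centralizer ({y} : Set G)))) (hM : IsPModular p M)
    (hy : ∃ k : ℕ, orderOf y = p ^ k)
    (hind : IsInducedBlock M (Subgroup.centralizer ({y} : Set G)) b B)
    (hd : blockDefect p b = blockDefect p B) :
    Nat.card B ≤ p ^ blockDefect p B * blockRank p b := by
  have h : (Nat.card B : ℝ) * conjCount y ≤
      ((p ^ blockDefect p B * blockRank p b : ℕ) : ℝ) * conjCount y := by
    rw [← hd, ← sum_diagSum y b hM hy hind, ← card_blockFinset, ← nsmul_eq_mul, ← sum_const]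
    exact sum_le_sum fun χ hχ => conjCount_le_diagSum y b hM hy hind
      (secX_self_ne_zero_of_major y b hM hy hind hd (mem_blockFinset.1 hχ))
  exact_mod_cast le_of_mul_le_mul_right h (galCard_pos _)

/-- The subsection at an element of an abelian defect group, inside its centraliser. -/
theorem exists_major_local (hM : IsPModular p M) (hB : IsPBlock M B)
    (hD : IsDefectGroup p M B D) (hab : ∀ u ∈ D, ∀ w ∈ D, u * w = w * u) {x : G} (hx : x ∈ D)
    [Fintype (Subgroup.centralizer ({x} : Set G))] :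
    ∃ (b : Set (IrrCharacter (Subgroup.centralizer ({x} : Set G))))
      (e' : MonoidAlgebra (Blocks.Res M) (Subgroup.centralizer ({x} : Set G))),
      IsInducedBlock M (Subgroup.centralizer ({x} : Set G)) b B ∧
      blockDefect p b = blockDefect p B ∧
      IsDefectGroup p M b (D.subgroupOf (Subgroup.centralizer ({x} : Set G))) ∧
      IsMaxPair p (⊤ : Subgroup (Subgroup.centralizer ({x} : Set G)))
        (redElem M (blockCoeff b)) (D.subgroupOf (Subgroup.centralizer ({x} : Set G))) e' := by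
  haveI : M.IsMaximal := hM.2.1
  haveI := Blocks.charP_res hM
  haveI : IsAlgClosed (Blocks.Res M) := Blocks.isAlgClosed_res
  obtain ⟨ε, hmax⟩ := exists_isMaxPair_of_isDefectIn
    (isBlockIdem_redElem_blockCoeff (M := M) hB) ((isDefectGroup_iff hM hB).1 hD)
  obtain ⟨hbl, -, hind⟩ := belowBlock_spec hM hB hmax hx
  obtain ⟨e', -, hmax'⟩ := BlockStar.exists_local hM hB hmax hab hx
  have hdef := (isDefectGroup_iff hM hbl).2
    (hmax'.isDefectIn (isBlockIdem_redElem_blockCoeff hbl))
  refine ⟨_, e', hind, ?_, hdef, hmax'⟩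
  have h1 := Blocks.card_isDefectGroup hM hbl hdef
  rw [Nat.card_congr (Subgroup.subgroupOfEquivOfLe
    (BlockStar.le_centralizer_of_mem hab hx)).toEquiv, Blocks.card_isDefectGroup hM hB hD] at h1
  exact (Nat.pow_right_injective hp.out.two_le h1).symm

/-- An abelian defect group with two generators. -/
theorem card_le_of_two_gen (hM : IsPModular p M) (hB : IsPBlock M B)
    (hD : IsDefectGroup p M B D) (hab : ∀ u ∈ D, ∀ w ∈ D, u * w = w * u) {x y : G} (hx : x ∈ D)
    (hy : y ∈ D) (hgen : ∀ u ∈ D, ∃ i j : ℤ, u = x ^ i * y ^ j) :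
    Nat.card B ≤ Nat.card D := by
  classical
  haveI : M.IsMaximal := hM.2.1
  haveI := Blocks.charP_res hM
  haveI : IsAlgClosed (Blocks.Res M) := Blocks.isAlgClosed_res
  haveI := Fintype.ofFinite (Subgroup.centralizer ({x} : Set G))
  obtain ⟨b, e', hind, hbd, -, hmax'⟩ := exists_major_local hM hB hD hab hx
  obtain ⟨a, ha⟩ := IsPGroup.iff_orderOf.1
    (IsPGroup.of_card (Blocks.card_isDefectGroup hM hB hD)) ⟨x, hx⟩
  rw [Subgroup.orderOf_mk] at ha
  by_cases hyx : y ∈ Subgroup.zpowers x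
  · have hle : D ≤ Subgroup.zpowers x := fun u hu => by
      obtain ⟨i, j, rfl⟩ := hgen u hu
      exact mul_mem (Subgroup.zpow_mem_zpowers x i) (Subgroup.zpow_mem _ hyx j)
    have hcard := Subgroup.card_le_of_le hle
    rw [Nat.card_zpowers, ha, Blocks.card_isDefectGroup hM hB hD] at hcard
    have hl : blockRank p b ≤ 1 := blockRank_le_one_of_central hM hind.1 (z := cenElem x)
      (commute_cenElem x) (a := a) (by rw [← Subgroup.orderOf_coe]; exact ha)
      (hbd ▸ (Nat.pow_le_pow_iff_right hp.out.one_lt).1 hcard)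
    calc Nat.card B ≤ p ^ blockDefect p B * blockRank p b :=
          card_le_pow_mul_blockRank x b hM ⟨a, ha⟩ hind hbd
      _ ≤ p ^ blockDefect p B * 1 := Nat.mul_le_mul_left _ hl
      _ = Nat.card D := by rw [mul_one, Blocks.card_isDefectGroup hM hB hD]
  have hDC := BlockStar.le_centralizer_of_mem (P := D) hab hx
  have S : QuotSetting p M b (D.subgroupOf (Subgroup.centralizer ({x} : Set G))) e'
      (Subgroup.zpowers (cenElem x)) ⟨y, hDC hy⟩ :=
    { modular := hM
      block := hind.1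
      max := hmax'
      comm := fun u hu w hw => Subtype.ext (hab _ hu _ hw)
      zle := Subgroup.zpowers_le.2 hx
      zcen := fun z hz k => by
        obtain ⟨m, rfl⟩ := hz
        exact (commute_cenElem x k).zpow_left m
      vmem := hy
      gen := fun u hu => by
        obtain ⟨i, j, hij⟩ := hgen (u : G) hu
        refine ⟨j, cenElem x ^ i, Subgroup.zpow_mem_zpowers _ _, Subtype.ext ?_⟩
        rw [hij, hab _ (D.zpow_mem hx i) _ (D.zpow_mem hy j)]
        simp [cenElem]
      vnot := fun h => hyx (by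
        obtain ⟨m, hm⟩ := Subgroup.mem_zpowers_iff.1 h
        refine Subgroup.mem_zpowers_iff.2 ⟨m, ?_⟩
        have := congrArg Subtype.val hm
        simpa [cenElem] using this) }
  obtain ⟨n, ℓ, hn, hnorm, hwl, hdet⟩ := S.exists_functionals
  refine card_le_of_functionals x b hM ⟨a, ha⟩ hind hbd hn ℓ ?_ hwl hdet
  rwa [Nat.card_congr (Subgroup.subgroupOfEquivOfLe hDC).toEquiv] at hnorm

/-- A subgroup of a commutative two-generated group has two generators. -/
theorem exists_two_gen_of_le {H : Type*} [Group H] {Q : Subgroup H} {a b : H}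
    (hc : Commute a b) (hQ : ∀ u ∈ Q, ∃ i j : ℤ, u = a ^ i * b ^ j) :
    ∃ x ∈ Q, ∃ y ∈ Q, ∀ u ∈ Q, ∃ i j : ℤ, u = x ^ i * y ^ j := by
  have hcz : ∀ i j : ℤ, Commute (a ^ i) (b ^ j) := fun i j => (hc.zpow_left i).zpow_right j
  let A : AddSubgroup ℤ :=
    { carrier := {i | a ^ i ∈ Q}
      zero_mem' := by simp
      add_mem' := fun {i j} hi hj => by
        show a ^ (i + j) ∈ Q
        rw [zpow_add]; exact Q.mul_mem hi hj
      neg_mem' := fun {i} hi => by
        show a ^ (-i) ∈ Q
        rw [zpow_neg]; exact Q.inv_mem hi }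
  let A' : AddSubgroup ℤ :=
    { carrier := {j | ∃ i : ℤ, a ^ i * b ^ j ∈ Q}
      zero_mem' := ⟨0, by simp⟩
      add_mem' := fun {j j'} ⟨i, hi⟩ ⟨i', hi'⟩ => ⟨i + i', by
        have h := Q.mul_mem hi hi'
        rwa [(hcz i' j).symm.mul_mul_mul_comm, ← zpow_add, ← zpow_add] at h⟩
      neg_mem' := fun {j} ⟨i, hi⟩ => ⟨-i, by
        have h := Q.inv_mem hi
        rwa [mul_inv_rev, ← zpow_neg, ← zpow_neg, (hcz (-i) (-j)).symm.eq] at h⟩ }
  obtain ⟨g, hg⟩ := Int.subgroup_cyclic A
  obtain ⟨k, hk⟩ := Int.subgroup_cyclic A'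
  obtain ⟨m, hm⟩ : k ∈ A' := hk ▸ AddSubgroup.subset_closure rfl
  have hgQ : a ^ g ∈ Q := (hg ▸ AddSubgroup.subset_closure rfl : g ∈ A)
  refine ⟨_, hgQ, _, hm, fun u hu => ?_⟩
  obtain ⟨i, j, rfl⟩ := hQ u hu
  obtain ⟨s, hs⟩ := AddSubgroup.mem_closure_singleton.1
    (show j ∈ AddSubgroup.closure {k} from hk ▸ (show j ∈ A' from ⟨i, hu⟩))
  have hcm : Commute (a ^ m) (b ^ k) := hcz m k
  have hiA : i - m * s ∈ A := by
    show a ^ (i - m * s) ∈ Q
    have h := Q.mul_mem hu (Q.inv_mem (Q.zpow_mem hm s))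
    rw [hcm.mul_zpow, ← zpow_mul, ← zpow_mul, ← hs, smul_eq_mul, mul_comm s k, mul_inv_rev,
      mul_assoc, ← mul_assoc (b ^ (k * s)), mul_inv_cancel, one_mul, ← zpow_neg, ← zpow_add] at h
    rwa [sub_eq_add_neg]
  obtain ⟨r, hr⟩ := AddSubgroup.mem_closure_singleton.1 (hg ▸ hiA)
  rw [smul_eq_mul] at hr hs
  refine ⟨r, s, ?_⟩
  rw [← zpow_mul, hcm.mul_zpow, ← zpow_mul, ← zpow_mul, ← mul_assoc, ← zpow_add, mul_comm g r,
    hr, sub_add_cancel, mul_comm k s, hs]

/-- An abelian defect group with three generators. -/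
theorem card_mul_le_of_three_gen (hM : IsPModular p M) (hB : IsPBlock M B)
    (hD : IsDefectGroup p M B D) (hab : ∀ u ∈ D, ∀ w ∈ D, u * w = w * u) {x y z : G} (hx : x ∈ D)
    (hy : y ∈ D) (hz : z ∈ D) (hgen : ∀ u ∈ D, ∃ i j k : ℤ, u = x ^ i * y ^ j * z ^ k) {a : ℕ}
    (ha : orderOf x = p ^ a) :
    Nat.card B * p ^ a ≤ Nat.card D ^ 2 := by
  classical
  haveI : M.IsMaximal := hM.2.1
  haveI := Blocks.charP_res hM
  haveI : IsAlgClosed (Blocks.Res M) := Blocks.isAlgClosed_res
  haveI := Fintype.ofFinite (Subgroup.centralizer ({x} : Set G))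
  obtain ⟨b, e', hind, hbd, hbD, -⟩ := exists_major_local hM hB hD hab hx
  have hDC := BlockStar.le_centralizer_of_mem (P := D) hab hx
  let xC : (Subgroup.centralizer ({x} : Set G)) := cenElem x
  have hxc : ∀ k : (Subgroup.centralizer ({x} : Set G)), Commute xC k := commute_cenElem x
  haveI : (Subgroup.zpowers xC).Normal := ⟨fun u hu g => by
    obtain ⟨m, rfl⟩ := hu
    show g * xC ^ m * g⁻¹ ∈ _
    rw [← ((hxc g).zpow_left m).eq, mul_inv_cancel_right]
    exact Subgroup.zpow_mem_zpowers xC m⟩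
  haveI := Fintype.ofFinite ((Subgroup.centralizer ({x} : Set G)) ⧸ Subgroup.zpowers xC)
  let φ := QuotientGroup.mk' (Subgroup.zpowers xC)
  have hφ : Function.Surjective φ := QuotientGroup.mk'_surjective _
  have hker : φ.ker = Subgroup.zpowers xC := QuotientGroup.ker_mk' _
  have hxa : orderOf xC = p ^ a := by rw [← Subgroup.orderOf_coe]; exact ha
  have hcard : Nat.card (Subgroup.zpowers xC) = p ^ a := by rw [Nat.card_zpowers, hxa]
  obtain ⟨B', hB', hl, hdef, hinfl⟩ := exists_dominated_block hM hφ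
    (by rw [hker]; exact Subgroup.zpowers_le.2 (Subgroup.mem_center_iff.2 fun g => (hxc g).eq.symm))
    (by rw [hker]; exact IsPGroup.of_card hcard) hind.1
  rw [hker, hcard, Nat.factorization_pow, Finsupp.smul_apply, hp.out.factorization_self,
    smul_eq_mul, mul_one, hbd] at hdef
  obtain ⟨D', hD'⟩ := exists_isDefectGroup hM hB'
  obtain ⟨-, hD'p, hbr, -⟩ := (isDefectGroup_iff hM hB').1 hD'
  obtain ⟨-, -, -, s, -, hs, hse⟩ := (isDefectGroup_iff hM hind.1).1 hbD
  have hmem : mapG φ (redElem M (blockCoeff b)) * redElem M (blockCoeff B') =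
      redElem M (blockCoeff B') :=
    (CharDegreesTheory.inflate_mem_iff hφ hind.1 hB').1 fun χ hχ ψ hψ => by
      rw [show ψ = inflIrr hφ χ from Subtype.ext hψ]
      exact (hinfl χ).1 hχ
  let P' := D.subgroupOf (Subgroup.centralizer ({x} : Set G))
  have hfix := (mem_ctr.1 (isBlockIdem_redElem_blockCoeff (M := M) hB').mem).2
  rw [← hse, CharDegreesTheory.mapG_relTr_eq hφ P' hs, relTr_mul _ _ hfix] at hmem
  rw [← hmem] at hbr
  obtain ⟨c, -, hc⟩ := exists_conj_le_of_brau_relTr_ne_zero hD'p le_top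
    (mul_mem ((fixedBy _ _).smul_mem (CharDegreesTheory.mapG_mem_fixedBy_map φ hs) _)
      (fixedBy_anti le_top hfix)) hbr
  let yC : (Subgroup.centralizer ({x} : Set G)) := ⟨y, hDC hy⟩
  let zC : (Subgroup.centralizer ({x} : Set G)) := ⟨z, hDC hz⟩
  have hyz : Commute (c * φ yC * c⁻¹) (c * φ zC * c⁻¹) := by
    have h : Commute (φ yC) (φ zC) := Commute.map (show Commute yC zC from
      Subtype.ext (hab y hy z hz)) φ
    show _ = _
    calc c * φ yC * c⁻¹ * (c * φ zC * c⁻¹) = c * (φ yC * φ zC) * c⁻¹ := by group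
      _ = c * (φ zC * φ yC) * c⁻¹ := by rw [h.eq]
      _ = _ := by group
  have hQgen : ∀ u ∈ D', ∃ i j : ℤ, u = (c * φ yC * c⁻¹) ^ i * (c * φ zC * c⁻¹) ^ j := by
    intro u hu
    obtain ⟨w, hw, hwu⟩ := hc u hu
    obtain ⟨i, j, k, hijk⟩ := hgen (w : G) hw
    have hweq : w = xC ^ i * yC ^ j * zC ^ k := Subtype.ext (by
      rw [hijk]; simp [xC, yC, zC, cenElem])
    have hφx : φ xC = 1 := (QuotientGroup.eq_one_iff _).2 (Subgroup.mem_zpowers _)
    refine ⟨j, k, ?_⟩
    have hu' : u = c * φ w * c⁻¹ := by rw [hwu]; group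
    rw [hu', hweq, map_mul, map_mul, map_zpow, map_zpow, map_zpow, hφx, one_zpow, one_mul,
      conj_zpow, conj_zpow]
    group
  obtain ⟨x', hx', y', hy', hgen'⟩ := exists_two_gen_of_le hyz hQgen
  have hab' : ∀ u ∈ D', ∀ w ∈ D', u * w = w * u := by
    intro u hu w hw
    obtain ⟨i, j, rfl⟩ := hQgen u hu
    obtain ⟨i', j', rfl⟩ := hQgen w hw
    exact ((((Commute.refl _).zpow_zpow i i').mul_right (hyz.zpow_zpow i j')).mul_left
      (((hyz.zpow_zpow i' j).symm).mul_right ((Commute.refl _).zpow_zpow j j'))).eq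
  have hk' := card_le_of_two_gen hM hB' hD' hab' hx' hy' hgen'
  rw [Blocks.card_isDefectGroup hM hB' hD'] at hk'
  have h1 := card_le_pow_mul_blockRank x b hM ⟨a, ha⟩ hind hbd
  rw [Blocks.card_isDefectGroup hM hB hD]
  calc Nat.card B * p ^ a ≤ p ^ blockDefect p B * p ^ blockDefect p B' * p ^ a :=
        Nat.mul_le_mul_right _ (h1.trans (Nat.mul_le_mul_left _ (hl.trans hk')))
    _ = p ^ blockDefect p B * p ^ (blockDefect p B' + a) := by rw [mul_assoc, ← pow_add]
    _ ≤ p ^ blockDefect p B * p ^ blockDefect p B :=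
        Nat.mul_le_mul_left _ (Nat.pow_le_pow_right hp.out.pos hdef)
    _ = _ := (sq _).symm

end CfsgLib.BrauerPairs
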